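import Cfsg.Agent.AutOrth.Bounds
import Cfsg.Agent.Classical.Orth.Forms

/-! Every automorphism of `PΩ⁻` is induced by a semisimilarity, also over the field with two elements. -/

set_option autoImplicit false
set_option linter.unusedSectionVars false

namespace CfsgLib.AutOrthMinus

open Cfsg Cfsg.Geo CfsgLib.OrthGeo CfsgLib.AutOrth Module
open scoped Matrix MatrixGroups

variable {F : Type*} [Field F] [Fintype F] {m : ℕ} {a b : F}

/-- Totally singular subspaces of the minus form are smaller than half. -/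
theorem minus_ts_le (hab : ∀ x y : F, x ^ 2 + a * x * y + b * y ^ 2 = 0 → x = 0 ∧ y = 0)
    {W : Submodule F ((Fin m ⊕ Fin m) ⊕ Fin 2 → F)} (hW : IsTotallySingularQuad (quadFormMinus m F a b) W) :
    finrank F W ≤ m := by
  classical
  set hQ := Classical.Orth.isNondegQF_quadFormMinus m a b hab
  by_contra hlt
  have h2m := two_mul_finrank_le hQ hW
  simp only [Fintype.card_sum, Fintype.card_fin] at h2m
  let pr : ((Fin m ⊕ Fin m) ⊕ Fin 2 → F) →ₗ[F] (Fin m → F) × (Fin 2 → F) :=
    (LinearMap.funLeft F F fun i => Sum.inl (Sum.inr i)).prod (LinearMap.funLeft F F Sum.inr)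
  set S := LinearMap.ker pr
  have hmem : ∀ v, v ∈ S ↔ (∀ i, v (.inl (.inr i)) = 0) ∧ ∀ k, v (.inr k) = 0 := fun v => by
    simp [S, pr, LinearMap.mem_ker, funext_iff]
  have hS : finrank F S = m := by
    have hsurj : Function.Surjective pr := fun w => ⟨Sum.elim (Sum.elim 0 w.1) w.2, rfl⟩
    have h := LinearMap.finrank_range_add_finrank_ker pr
    rw [LinearMap.range_eq_top.2 hsurj, finrank_top, finrank_prod, finrank_fintype_fun_eq_card,
      finrank_fintype_fun_eq_card, finrank_fintype_fun_eq_card] at h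
    simp only [Fintype.card_sum, Fintype.card_fin] at h
    show finrank F (LinearMap.ker pr) = m
    omega
  have hWp : perp hQ W = W := by
    refine (Submodule.eq_of_le_of_finrank_le (le_perp_self hQ hW) ?_).symm
    have h := finrank_perp_add hQ W
    simp only [Fintype.card_sum, Fintype.card_fin] at h
    omega
  have hsub : W ⊓ perp hQ S ≤ W ⊓ S := by
    rintro v ⟨hv, hvS⟩
    have hy : ∀ i, v (.inl (.inr i)) = 0 := fun i => by
      have h := (mem_perp hQ).1 hvS (Pi.single (.inl (.inl i)) 1) ((hmem _).2 ⟨by simp, by simp⟩)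
      rw [bform_apply hQ] at h
      simp [QuadraticMap.polar, quadFormMinus, Pi.single_apply, Finset.sum_add_distrib, add_mul] at h
      exact h
    have h := hW v hv
    rw [quadFormMinus, Finset.sum_eq_zero (fun i _ => by rw [hy i, mul_zero]), zero_add] at h
    obtain ⟨h0, h1⟩ := hab _ _ h
    exact ⟨hv, (hmem v).2 ⟨hy, fun k => by fin_cases k <;> assumption⟩⟩
  have h1 : W ⊓ perp hQ S = perp hQ (W ⊔ S) := by rw [perp_sup hQ, hWp]
  have h2 := finrank_perp_add hQ (W ⊔ S)
  have h3 := Submodule.finrank_sup_add_finrank_inf_eq W S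
  have h4 := Submodule.finrank_mono hsub
  rw [← h1] at h2
  simp only [Fintype.card_sum, Fintype.card_fin] at h2
  omega

lemma card_singular_two (hq : Fintype.card F = 2) (n : ℕ)
    (hab : ∀ x y : F, x ^ 2 + a * x * y + b * y ^ 2 = 0 → x = 0 ∧ y = 0) :
    2 * {v : (Fin n ⊕ Fin n) ⊕ Fin 2 → F | quadFormMinus n F a b v = 0}.ncard < 2 ^ (2 * n + 2) := by
  classical
  have h01 : ∀ z : F, z = 0 ∨ z = 1 := fun z => by
    by_contra h
    push Not at h
    have h3 := Finset.card_le_univ ({0, 1, z} : Finset F)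
    rw [Finset.card_eq_three.2 ⟨0, 1, z, zero_ne_one, h.1.symm, h.2.symm, rfl⟩] at h3
    omega
  let χ : F → ℤ := fun z => if z = 0 then 1 else -1
  have h2 : (1 : F) + 1 = 0 := by
    rcases h01 (1 + 1) with h | h
    · exact h
    · exact absurd (left_eq_add.1 h.symm) one_ne_zero
  have hadd : ∀ x y, χ (x + y) = χ x * χ y := fun x y => by
    rcases h01 x with rfl | rfl <;> rcases h01 y with rfl | rfl <;> simp [χ, h2]
  have hsum : ∀ {κ : Type} (s : Finset κ) (g : κ → F), χ (∑ i ∈ s, g i) = ∏ i ∈ s, χ (g i) := fun s g => by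
    induction s using Finset.induction_on with
    | empty => simp [χ]
    | insert i s hi ih => rw [Finset.sum_insert hi, Finset.prod_insert hi, hadd, ih]
  have hU : (Finset.univ : Finset F) = {0, 1} := by
    ext z; rcases h01 z with rfl | rfl <;> simp
  have hT : ∑ v : (Fin n ⊕ Fin n) ⊕ Fin 2 → F, χ (quadFormMinus n F a b v) = -(2 ^ (n + 1)) := by
    let e : ((Fin n ⊕ Fin n) ⊕ Fin 2 → F) ≃ (Fin n → F × F) × (Fin 2 → F) :=
      { toFun := fun v => (fun i => (v (.inl (.inl i)), v (.inl (.inr i))), fun k => v (.inr k))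
        invFun := fun w => Sum.elim (Sum.elim (fun i => (w.1 i).1) fun i => (w.1 i).2) w.2
        left_inv := fun v => by funext j; rcases j with (j | j) | j <;> rfl
        right_inv := fun w => rfl }
    rw [Fintype.sum_equiv e (fun v => χ (quadFormMinus n F a b v))
      (fun w => (∏ i, χ ((w.1 i).1 * (w.1 i).2)) * χ (w.2 0 ^ 2 + a * w.2 0 * w.2 1 + b * w.2 1 ^ 2))
      (fun v => by show χ (_ + _) = _; rw [hadd, hsum]; rfl)]
    rw [Fintype.sum_prod_type]
    dsimp only
    rw [← Finset.sum_mul_sum, ← Fintype.prod_sum (fun (_ : Fin n) (q : F × F) => χ (q.1 * q.2)),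
      Finset.prod_const, Finset.card_univ, Fintype.card_fin]
    have e1 : ∑ q : F × F, χ (q.1 * q.2) = 2 := by
      rw [Fintype.sum_prod_type, hU]; simp [χ, Finset.sum_pair zero_ne_one]
    have e2 : ∑ z : Fin 2 → F, χ (z 0 ^ 2 + a * z 0 * z 1 + b * z 1 ^ 2) = -2 := by
      rw [Fintype.sum_equiv (finTwoArrowEquiv F) (fun z : Fin 2 → F => χ (z 0 ^ 2 + a * z 0 * z 1 + b * z 1 ^ 2))
        (fun w => if w = (0, 0) then 1 else -1) fun z => ?_]
      · rw [Fintype.sum_prod_type, hU]; simp [Finset.sum_pair zero_ne_one, Prod.ext_iff]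
      · by_cases h : z 0 ^ 2 + a * z 0 * z 1 + b * z 1 ^ 2 = 0
        · obtain ⟨h0, h1⟩ := hab _ _ h
          simp [χ, h, h0, h1]
        · have : ¬ (z 0 = 0 ∧ z 1 = 0) := fun hh => h (by rw [hh.1, hh.2]; ring)
          simp [χ, h, Prod.ext_iff, this]
    rw [e1, e2]; ring
  rw [Finset.sum_ite, Finset.sum_const, Finset.sum_const] at hT
  have hc := Finset.card_filter_add_card_filter_not (s := (Finset.univ : Finset ((Fin n ⊕ Fin n) ⊕ Fin 2 → F)))
    (fun v => quadFormMinus n F a b v = 0)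
  rw [Finset.card_univ, Fintype.card_fun, hq] at hc
  simp only [Fintype.card_sum, Fintype.card_fin] at hc
  rw [Set.ncard_eq_toFinset_card', Set.toFinset_setOf]
  have hp : (0 : ℤ) < 2 ^ (n + 1) := by positivity
  simp only [smul_eq_mul, nsmul_eq_mul, mul_one, mul_neg] at hT
  have : n + n + 2 = 2 * n + 2 := by omega
  rw [this] at hc
  omega

/-- The orbit hypothesis over two elements. -/
theorem perpOrbits_two (hm : 3 ≤ m) (hq : Fintype.card F = 2)
    (hab : ∀ x y : F, x ^ 2 + a * x * y + b * y ^ 2 = 0 → x = 0 ∧ y = 0) :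
    PerpOrbits (quadFormMinus m F a b) := by
  classical
  set hQ := Classical.Orth.isNondegQF_quadFormMinus m a b hab
  intro P X hne hperp hcard
  obtain ⟨n, rfl⟩ : ∃ n, m = n + 1 := ⟨m - 1, by omega⟩
  have hn : 5 ≤ Fintype.card ((Fin (n + 1) ⊕ Fin (n + 1)) ⊕ Fin 2) := by simp; omega
  obtain ⟨e, he0, he, rfl⟩ := exists_mk P
  set e₀ : (Fin (n + 1) ⊕ Fin (n + 1)) ⊕ Fin 2 → F := Pi.single (.inl (.inl 0)) 1 with he₀
  have hq₀ : quadFormMinus (n + 1) F a b e₀ = 0 := by simp [he₀, quadFormMinus, Pi.single_apply]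
  obtain ⟨g, hg, hge⟩ := exists_map_singular hQ hn he hq₀ he0 (fun h => by simpa [he₀] using congrFun h (.inl (.inl 0)))
  have hg' := mem_isometryGroup.1 (eichlerGroup_le_isometry hQ hg)
  set gM : Matrix ((Fin (n + 1) ⊕ Fin (n + 1)) ⊕ Fin 2) ((Fin (n + 1) ⊕ Fin (n + 1)) ⊕ Fin 2) F := (g : GL ((Fin (n + 1) ⊕ Fin (n + 1)) ⊕ Fin 2) F).val with hgM
  have hsub : stabOrbit (mkPoint he0 he) X ⊆ {Y | PerpPt (quadFormMinus (n + 1) F a b) (mkPoint he0 he) Y} := by
    rintro Y ⟨k, hkP, rfl⟩
    show PerpPt _ _ _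
    rw [← hkP, perpPt_smul hQ]
    exact hperp
  have h1 := Set.ncard_le_ncard hsub (Set.toFinite _)
  have h2 := ncard_mul_le (Q := quadFormMinus (n + 1) F a b) {Y | PerpPt (quadFormMinus (n + 1) F a b) (mkPoint he0 he) Y}
    {v | quadFormMinus (n + 1) F a b v = 0 ∧ bform hQ e v = 0}
    (fun u hu0 hu h => ⟨hu, (perpPt_mk (hQ := hQ)).1 h⟩) (fun c u hu => by rw [q_smul hQ, hu, mul_zero])
  have h3 : {v | quadFormMinus (n + 1) F a b v = 0 ∧ bform hQ e v = 0}.ncard ≤
      2 * {v : (Fin n ⊕ Fin n) ⊕ Fin 2 → F | quadFormMinus n F a b v = 0}.ncard := by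
    refine le_trans ?_ (le_of_eq (show Fintype.card F * _ = 2 * _ by rw [hq]))
    rw [← Nat.card_eq_fintype_card, ← Set.ncard_univ, ← Set.ncard_prod]
    refine Set.ncard_le_ncard_of_injOn (fun v => ((gM *ᵥ v) (.inl (.inl 0)),
      fun j => (gM *ᵥ v) (Sum.map (Sum.map Fin.succ Fin.succ) id j))) ?_ ?_ (Set.toFinite _)
    · rintro v ⟨hv, hev⟩
      refine ⟨trivial, ?_⟩
      have hb : bform hQ e₀ (gM *ᵥ v) = 0 := by
        rw [← hge, bform_apply hQ, QuadraticMap.polar, ← Matrix.mulVec_add, hg', hg', hg']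
        rw [bform_apply hQ, QuadraticMap.polar] at hev
        exact hev
      rw [← hg'] at hv
      rw [bform_apply hQ] at hb
      generalize (gM *ᵥ v) = w at hv hb
      simp [he₀, QuadraticMap.polar, quadFormMinus, Pi.single_apply, Finset.sum_add_distrib, add_mul] at hb
      show quadFormMinus n F a b _ = 0
      rw [quadFormMinus, Fin.sum_univ_succ, hb, mul_zero, zero_add] at hv
      exact hv
    · rintro u ⟨hu, heu⟩ v ⟨hv, hev⟩ huv
      obtain ⟨h5, h6⟩ := Prod.ext_iff.1 huv
      simp only at h5 h6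
      have hy : ∀ w, bform hQ e w = 0 → (gM *ᵥ w) (.inl (.inr 0)) = 0 := by
        intro w hw
        have hb : bform hQ e₀ (gM *ᵥ w) = 0 := by
          rw [← hge, bform_apply hQ, QuadraticMap.polar, ← Matrix.mulVec_add, hg', hg', hg']
          rw [bform_apply hQ, QuadraticMap.polar] at hw
          exact hw
        rw [bform_apply hQ] at hb
        generalize (gM *ᵥ w) = w' at hb
        simp [he₀, QuadraticMap.polar, quadFormMinus, Pi.single_apply, Finset.sum_add_distrib, add_mul] at hb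
        exact hb
      have e7 : gM *ᵥ u = gM *ᵥ v := by
        funext j
        rcases j with (j | j) | j
        · induction j using Fin.cases with
          | zero => exact h5
          | succ i => exact congrFun h6 (.inl (.inl i))
        · induction j using Fin.cases with
          | zero => rw [hy u heu, hy v hev]
          | succ i => exact congrFun h6 (.inl (.inr i))
        · exact congrFun h6 (.inr j)
      exact Matrix.mulVec_injective_of_isUnit g.isUnit e7
  have h4 := card_singular_two (a := a) (b := b) hq n hab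
  rw [hq] at h2
  have h5 : (2 : ℕ) ^ (2 * n + 2) = 2 ^ (2 * (n + 1) + 2 - 2) := by congr 1
  rw [hcard, hq] at h1
  simp only [Fintype.card_sum, Fintype.card_fin] at h1
  rw [show n + 1 + (n + 1) + 2 - 2 = 2 * n + 2 by omega] at h1
  omega

/-- Every automorphism of `PΩ⁻` is induced by a semisimilarity. -/
theorem isSemisim_minus (hm : 3 ≤ m) (hab : ∀ x y : F, x ^ 2 + a * x * y + b * y ^ 2 = 0 → x = 0 ∧ y = 0)
    (β : MulAut (POmega F (quadFormMinus m F a b))) : IsSemisim (quadFormMinus m F a b) β := by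
  set hQ := Classical.Orth.isNondegQF_quadFormMinus m a b hab
  have h7 : 7 ≤ Fintype.card ((Fin m ⊕ Fin m) ⊕ Fin 2) := by simp; omega
  have h8 : ∀ W : Submodule F ((Fin m ⊕ Fin m) ⊕ Fin 2 → F), IsTotallySingularQuad (quadFormMinus m F a b) W →
      Fintype.card ((Fin m ⊕ Fin m) ⊕ Fin 2) = 8 → finrank F W ≤ 3 := fun W hW h => by
    have := minus_ts_le hab hW
    simp only [Fintype.card_sum, Fintype.card_fin] at h
    omega
  by_cases hq : 3 ≤ Fintype.card F
  · exact isSemisim_of_dim hQ h7 hq h8 β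
  · have := Fintype.one_lt_card (α := F)
    exact isSemisim_of_orbits hQ (by omega) h7 (bigOrbits_of_eight hQ (by simp; omega) h8)
      (perpOrbits_two hm (by omega) hab) β

end CfsgLib.AutOrthMinus
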