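import Cfsg.Agent.AutOrthMinus.OutLift
import Cfsg.Agent.Classical.Orth.Index
import Cfsg.Agent.AutOrthField.Lang
import Cfsg.Agent.AutOrthField.FormClass

/-! The outer automorphism group of `PΩ⁻` in characteristic two, given that all automorphisms are semisimilar. -/

set_option autoImplicit false
set_option linter.unusedSectionVars false

namespace CfsgLib.AutOrthMinus

open Cfsg Cfsg.Geo CfsgLib.OrthGeo CfsgLib.AutOrth Module
open CfsgLib.AutOrthField (Sim scalarSim mult mult_spec mult_scalarSim scalar_mulVec)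
open scoped Matrix MatrixGroups

universe u

variable {F : Type u} [Field F] [Fintype F] [CharP F 2] {m : ℕ} {a b : F} {f : ℕ}

lemma two_eq_zero' : (2 : F) = 0 := by exact_mod_cast CharP.cast_eq_zero F 2

variable (hm : 3 ≤ m) (hab : ∀ x y : F, x ^ 2 + a * x * y + b * y ^ 2 = 0 → x = 0 ∧ y = 0)
include hm hab

lemma a_ne_zero : a ≠ 0 := by
  intro h
  refine Classical.Orth.four_mul_sub_sq_ne_zero hab ?_
  rw [h]
  linear_combination (2 * b) * two_eq_zero' (F := F)

/-- A similarity is a scalar times an isometry. -/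
lemma exists_scalar_iso (g : Sim (quadFormMinus m F a b)) :
    ∃ (u : Fˣ) (h : isometryGroup F (quadFormMinus m F a b)),
      g = scalarSim (Classical.Orth.isNondegQF_quadFormMinus m a b hab) u *
        Subgroup.inclusion (isometry_le_similarity _) h := by
  set hQ := Classical.Orth.isNondegQF_quadFormMinus m a b hab
  have hne : ∃ v, quadFormMinus m F a b v ≠ 0 := ⟨Pi.single (.inr 0) 1, by simp [quadFormMinus]⟩
  obtain ⟨r, hr⟩ := Classical.Orth.isSquare_of_two_eq_zero (two_eq_zero' (F := F)) (mult hne g : F)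
  have hr0 : r ≠ 0 := by rintro rfl; simp at hr
  refine ⟨Units.mk0 r hr0, ⟨((scalarSim hQ (Units.mk0 r hr0))⁻¹ * g).1, mem_isometryGroup.2 fun v => ?_⟩,
    (mul_inv_cancel_left _ _).symm⟩
  have hq := mult_spec hne ((scalarSim hQ (Units.mk0 r hr0))⁻¹ * g) v
  rw [map_mul, map_inv, mult_scalarSim, Units.val_mul, Units.val_inv_eq_inv_val, Units.val_pow_eq_pow_val,
    Units.val_mk0, hr, sq, inv_mul_cancel₀ (mul_ne_zero hr0 hr0), one_mul] at hq
  exact hq

/-- An isometry acting as an inner automorphism lies in `Omega`. -/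
lemma mem_omega_of_rho_eq_one {h : isometryGroup F (quadFormMinus m F a b)}
    (hh : rho m a b (Subgroup.inclusion (isometry_le_similarity _) h) = 1) :
    h ∈ Omega F (quadFormMinus m F a b) := by
  set hQ := Classical.Orth.isNondegQF_quadFormMinus m a b hab
  obtain ⟨x, hx⟩ := (rho_eq_one_iff _).1 hh
  obtain ⟨k, rfl⟩ := QuotientGroup.mk_surjective x
  have h1 : conjS _ (Subgroup.inclusion (isometry_le_similarity _) h * (omegaToS _ k)⁻¹) = 1 := by
    rw [map_mul, map_inv, conjS_omega]; exact mul_inv_eq_one.2 hx.symm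
  obtain ⟨c, hc⟩ := scalar_of_conjS_eq_one hQ (by simp; omega) h1
  have hmem : (h * (k : isometryGroup F (quadFormMinus m F a b))⁻¹).1 ∈ isometryGroup F (quadFormMinus m F a b) :=
    (h * (k : isometryGroup F (quadFormMinus m F a b))⁻¹).2
  have hq := mem_isometryGroup.1 hmem (Pi.single (.inr 0) 1)
  have e : ∀ v, (h * (k : isometryGroup F (quadFormMinus m F a b))⁻¹).1.val *ᵥ v = c • v := hc
  rw [e, hQ.smul, show quadFormMinus m F a b (Pi.single (.inr 0) 1) = 1 by simp [quadFormMinus], mul_one] at hq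
  have hc1 : c = 1 := by
    have : (c - 1) ^ 2 = 0 := by linear_combination hq + (1 - c) * two_eq_zero' (F := F)
    exact sub_eq_zero.1 (pow_eq_zero_iff two_ne_zero |>.1 this)
  have : h = k := by
    refine mul_inv_eq_one.1 (Subtype.ext (gl_ext fun v => ?_))
    rw [e, hc1, one_smul, OneMemClass.coe_one, Units.val_one, Matrix.one_mulVec]
  rw [this]; exact k.2

/-- The trace of `b / a²` is not zero. -/
lemma trace_ne_zero (hf : 1 ≤ f) (hF : Fintype.card F = 2 ^ f) :
    ∑ i ∈ Finset.range f, (b / a ^ 2) ^ 2 ^ i ≠ 0 := by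
  have ha := a_ne_zero hm hab
  have h2 := two_eq_zero' (F := F)
  let T : F → F := fun z => ∑ i ∈ Finset.range f, z ^ 2 ^ i
  have hT0 : ∀ t, T (t ^ 2 + t) = 0 := fun t => by
    show ∑ i ∈ Finset.range f, (t ^ 2 + t) ^ 2 ^ i = 0
    rw [Finset.sum_congr rfl fun i _ => show (t ^ 2 + t) ^ 2 ^ i = t ^ 2 ^ (i + 1) - t ^ 2 ^ i by
      rw [add_pow_char_pow, ← pow_mul, ← pow_succ', CharTwo.sub_eq_add], Finset.sum_range_sub (fun i => t ^ 2 ^ i),
      ← hF, FiniteField.pow_card, pow_zero, pow_one, sub_self]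
  have hTadd : ∀ s t, T (s + t) = T s + T t := fun s t => by
    show ∑ i ∈ Finset.range f, (s + t) ^ 2 ^ i = _
    rw [← Finset.sum_add_distrib]
    exact Finset.sum_congr rfl fun i _ => add_pow_char_pow ..
  obtain ⟨z, hz⟩ : ∃ z, T z ≠ 0 := by
    letI : Algebra (ZMod 2) F := ZMod.algebra F 2
    obtain ⟨z, hz⟩ := Algebra.trace_surjective (ZMod 2) F 1
    refine ⟨z, fun h => ?_⟩
    have e := FiniteField.algebraMap_trace_eq_sum_pow (ZMod 2) F z
    rw [hz, map_one, Nat.card_zmod] at e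
    have hfr : Module.finrank (ZMod 2) F = f := by
      refine Nat.pow_right_injective le_rfl ?_
      change 2 ^ Module.finrank (ZMod 2) F = 2 ^ f
      rw [← hF, ← FiniteField.pow_finrank_eq_card 2 F]
    rw [hfr] at e
    exact one_ne_zero (e.trans h)
  have hβ : ∀ t : F, t ^ 2 + t + b / a ^ 2 ≠ 0 := fun t h => one_ne_zero (hab (a * t) 1 (by
    field_simp at h
    linear_combination h)).2
  have hz' : ∀ t : F, t ^ 2 + t + z ≠ 0 := fun t h => hz (by
    rw [show z = t ^ 2 + t by linear_combination h - (t ^ 2 + t) * h2]; exact hT0 t)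
  obtain ⟨s, hs⟩ := AutOrthField.exists_sq_add_self h2 hβ hz'
  intro h
  refine hz ?_
  rw [← hs, hTadd, hT0, zero_add]
  exact h

variable (hf : 1 ≤ f) (hF : Fintype.card F = 2 ^ f)
  (hall : ∀ β : MulAut (POmega F (quadFormMinus m F a b)), IsSemisim (quadFormMinus m F a b) β)
include hf hF hall

/-- The outer automorphism group in characteristic two is cyclic of order `2 f`. -/
theorem out_even :
    IsCyclic (Out (POmega F (quadFormMinus m F a b))) ∧ Nat.card (Out (POmega F (quadFormMinus m F a b))) = 2 * f := by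
  have : Fact (Nat.Prime 2) := ⟨Nat.prime_two⟩
  set hQ := Classical.Orth.isNondegQF_quadFormMinus m a b hab
  have h2 := two_eq_zero' (F := F)
  have ha := a_ne_zero hm hab
  have hexc : ¬ (Nat.card F = 2 ∧ Fintype.card (Idx m) = 4) := fun ⟨_, h⟩ => by simp at h; omega
  have hlift : SigLift a b (frobRA F 2) b a := by
    refine ⟨?_, ?_⟩
    · rw [frobRA_apply]; linear_combination b * h2
    · rw [frobRA_apply]; linear_combination (b * a ^ 2) * h2
  obtain ⟨L, hLx, hLy⟩ := exists_outLift hm hab hall ha hlift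
  obtain ⟨x, y, hy, h, ⟨hPy, hPx⟩, e⟩ := lift_pow (m := m) (Classical.Orth.four_mul_sub_sq_ne_zero hab) L.hy L.lift
    (fun k x y => a * y = a ^ 2 ^ k ∧ x = a ^ 2 ^ k * ∑ i ∈ Finset.range k, (b / a ^ 2) ^ 2 ^ i)
    ⟨by simp, by simp⟩ (fun k x y hP => by
      obtain ⟨hy', hx'⟩ := hP
      have hy2 : a ^ 2 * y ^ 2 = a ^ 2 ^ (k + 1) := by
        rw [show a ^ 2 ^ (k + 1) = (a ^ 2 ^ k) ^ 2 by rw [← pow_mul, ← pow_succ], ← hy']; ring
      have hs : (∑ i ∈ Finset.range k, (b / a ^ 2) ^ 2 ^ i) ^ 2 = ∑ i ∈ Finset.range k, (b / a ^ 2) ^ 2 ^ (i + 1) := by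
        rw [CharTwo.sum_sq]
        exact Finset.sum_congr rfl fun i _ => by rw [← pow_mul, ← pow_succ]
      rw [hLx, hLy, frobRA_apply, frobRA_apply]
      refine ⟨by linear_combination hy2, ?_⟩
      rw [Finset.sum_range_succ' _ k, ← hs, pow_zero, pow_one, ← hy2, hx']
      have hd : a ^ 2 * y ^ 2 * (b / a ^ 2) = b * y ^ 2 := by field_simp
      have he : (a ^ 2 ^ k) ^ 2 = a ^ 2 * y ^ 2 := by rw [hy2, ← pow_mul, ← pow_succ]
      linear_combination (∑ i ∈ Finset.range k, (b / a ^ 2) ^ 2 ^ i) ^ 2 * he - hd) f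
  have hτ : frobRA F 2 ^ f = 1 := by rw [← orderOf_frobRA hf hF]; exact pow_orderOf_eq_one _
  have haf : a ^ 2 ^ f = a := by rw [← hF, FiniteField.pow_card]
  rw [haf] at hPy hPx
  have hy1 : y = 1 := mul_left_cancel₀ ha (hPy.trans (mul_one a).symm)
  subst hy1
  have hx0 : x ≠ 0 := by rw [hPx]; exact mul_ne_zero ha (trace_ne_zero hm hab hf hF)
  have h' : SigLift a b (RingEquiv.refl F) x 1 := by rw [show RingEquiv.refl F = frobRA F 2 ^ f from hτ.symm]; exact h
  have hmem : (sigGL x 1 hy : GL (Idx m) F) ∈ isometryGroup F (quadFormMinus m F a b) :=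
    mem_isometryGroup.2 fun v => h'.quadForm v
  set g₀ : isometryGroup F (quadFormMinus m F a b) := ⟨_, hmem⟩ with hg₀
  have hg₀Ω : g₀ ∉ Omega F (quadFormMinus m F a b) := by
    rw [Classical.Orth.mem_omega_iff_even hQ h2 hexc]
    have hr : Classical.Orth.residual (sigGL x 1 hy : GL (Idx m) F) = Submodule.span F {(Pi.single (.inr 0) 1 : Idx m → F)} := by
      refine le_antisymm ?_ ((Submodule.span_singleton_le_iff_mem _ _).2 ⟨Pi.single (.inr 1) (-x⁻¹), ?_⟩)
      · rintro _ ⟨v, rfl⟩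
        refine Submodule.mem_span_singleton.2 ⟨-(x * v (.inr 1)), ?_⟩
        rw [Matrix.mulVecLin_apply, Matrix.sub_mulVec, Matrix.one_mulVec, coe_sigGL]
        funext j
        rcases j with j | j
        · simp [sigMat_mulVec_inl]
        · fin_cases j
          · simp [sigMat_mulVec_zero]
          · simp [sigMat_mulVec_one]
      · rw [Matrix.mulVecLin_apply, Matrix.sub_mulVec, Matrix.one_mulVec, coe_sigGL]
        funext j
        rcases j with j | j
        · simp [sigMat]
        · fin_cases j <;> simp [sigMat, hx0]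
    show ¬ Even (finrank F (Classical.Orth.residual (sigGL x 1 hy : GL (Idx m) F)))
    rw [hr, finrank_span_singleton (by simp)]
    simp
  have hidx := Classical.Orth.index_omega_even hQ h2 (by simp) hexc
  set R := rho (F := F) m a b
  set Z := R (Subgroup.inclusion (isometry_le_similarity _) g₀) with hZ
  have hEf : L.E ^ f = Z := L.E_pow (g := sigGL x 1 hy) (h := h) (isometry_le_similarity _ hmem) hτ rfl e
  have hom : ∀ k : isometryGroup F (quadFormMinus m F a b), k ∈ Omega F (quadFormMinus m F a b) →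
      R (Subgroup.inclusion (isometry_le_similarity _) k) = 1 := fun k hk => (rho_eq_one_iff _).2 (by
    rw [show Subgroup.inclusion (isometry_le_similarity _) k = omegaToS _ ⟨k, hk⟩ from rfl, conjS_omega]
    exact ⟨_, rfl⟩)
  have hZ2 : Z * Z = 1 := by
    rw [hZ, ← map_mul, ← map_mul]
    exact hom _ ((Subgroup.mul_mem_iff_of_index_two hidx).2 Iff.rfl)
  have hker : ∀ g, R g = 1 ∨ R g = Z := by
    intro g
    obtain ⟨u, k, rfl⟩ := exists_scalar_iso hm hab g
    have hu : R (scalarSim hQ u) = 1 := (rho_eq_one_iff _).2 (by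
      rw [AutOrth.conjS_eq_one_of_scalar (c := (u : F)) fun v => by rw [AutOrthField.coe_scalarSim, scalar_mulVec]]
      exact one_mem _)
    rw [map_mul, hu, one_mul]
    by_cases hk : k ∈ Omega F (quadFormMinus m F a b)
    · exact Or.inl (hom k hk)
    · right
      have h1 := hom _ ((Subgroup.mul_mem_iff_of_index_two hidx).2 (iff_of_false hk hg₀Ω) : k * g₀ ∈ _)
      rw [map_mul, map_mul] at h1
      exact mul_right_cancel (h1.trans hZ2.symm)
  have hall' : ∀ z, z ∈ Subgroup.zpowers L.E := by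
    intro z
    obtain ⟨g, n, rfl⟩ := L.exists_eq (fun σ => mem_zpowers_frobRA hf hF σ) z
    refine mul_mem ?_ (zpow_mem (Subgroup.mem_zpowers _) n)
    change R g ∈ _
    rcases hker g with e' | e' <;> rw [e']
    · exact one_mem _
    · rw [← hEf]; exact pow_mem (Subgroup.mem_zpowers _) f
  have hcyc : IsCyclic (Out (POmega F (quadFormMinus m F a b))) := ⟨L.E, hall'⟩
  refine ⟨hcyc, ?_⟩
  rw [← orderOf_eq_card_of_forall_mem_zpowers hall']
  have hE2 : L.E ^ (2 * f) = 1 := by rw [mul_comm, pow_mul, hEf, sq, hZ2]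
  have hdvd : f ∣ orderOf L.E := by
    have := orderOf_map_dvd L.ψ L.E
    rwa [L.psi_E, orderOf_frobRA hf hF] at this
  obtain ⟨j, hj⟩ := hdvd
  have hj2 : j ∣ 2 := Nat.dvd_of_mul_dvd_mul_left (k := f) (by omega) (by
    rw [← hj, mul_comm f 2]; exact orderOf_dvd_of_pow_eq_one hE2)
  rcases (Nat.dvd_prime Nat.prime_two).1 hj2 with rfl | rfl
  · exfalso
    rw [mul_one] at hj
    refine hg₀Ω (mem_omega_of_rho_eq_one hm hab ?_)
    change Z = 1
    rw [← hEf, ← hj, pow_orderOf_eq_one]
  · rw [hj, mul_comm]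

end CfsgLib.AutOrthMinus
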