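import Cfsg.Agent.AutOrthMinus.OutOdd
import Cfsg.Agent.AutOrthMinus.OutEven
import Cfsg.Agent.AutOrthMinus.AllSemisim

/-! The outer automorphism group and the order of the automorphism group of `PΩ⁻`. -/

set_option autoImplicit false
set_option linter.unusedSectionVars false

namespace CfsgLib.AutOrthMinus

open Cfsg

universe u

variable {F : Type u} [Field F] [Fintype F] {m : ℕ} {a b : F} {p f : ℕ} [hp : Fact p.Prime]
variable (hf : 1 ≤ f) (hF : Fintype.card F = p ^ f) (hm : 3 ≤ m)
  (hab : ∀ x y : F, x ^ 2 + a * x * y + b * y ^ 2 = 0 → x = 0 ∧ y = 0)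
include hf hF hm hab

theorem out_two (hp2 : p = 2) :
    IsCyclic (Out (POmega F (quadFormMinus m F a b))) ∧ Nat.card (Out (POmega F (quadFormMinus m F a b))) = 2 * f := by
  subst hp2
  have : CharP F 2 := charP_of_card_eq_prime_pow (f := f) (Fintype.card_eq_nat_card ▸ hF)
  exact out_even hm hab hf hF (isSemisim_minus hm hab)

theorem out_ne_two (hp2 : p ≠ 2) :
    ((Even m ∧ p ^ f % 4 = 3) →
      Nonempty (Out (POmega F (quadFormMinus m F a b)) ≃* DihedralGroup 4 × Multiplicative (ZMod f))) ∧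
    (¬ (Even m ∧ p ^ f % 4 = 3) →
      Nonempty (Out (POmega F (quadFormMinus m F a b)) ≃* Multiplicative (ZMod 2 × ZMod (2 * f)))) := by
  have : CharP F p := charP_of_card_eq_prime_pow (f := f) (Fintype.card_eq_nat_card ▸ hF)
  have hodd : Odd (Fintype.card F) := hF ▸ (hp.out.odd_of_ne_two hp2).pow
  rw [← hF]
  exact out_odd (two_ne_zero_of_odd hodd) hm hab hf hF (isSemisim_minus hm hab)

theorem card_out :
    Nat.card (Out (POmega F (quadFormMinus m F a b))) =
      (if p = 2 then 2 else (if Even ((m + 1) * (p ^ f - 1) / 2) then 4 else 8)) * f := by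
  by_cases hp2 : p = 2
  · rw [if_pos hp2]
    exact (out_two hf hF hm hab hp2).2
  rw [if_neg hp2]
  obtain ⟨hD, hN⟩ := out_ne_two hf hF hm hab hp2
  obtain ⟨k, hk⟩ : Odd (p ^ f) := (hp.out.odd_of_ne_two hp2).pow
  have hiff : Even ((m + 1) * (p ^ f - 1) / 2) ↔ ¬ (Even m ∧ p ^ f % 4 = 3) := by
    rw [hk, show (m + 1) * (2 * k + 1 - 1) / 2 = (m + 1) * k by
      rw [Nat.add_sub_cancel, show (m + 1) * (2 * k) = 2 * ((m + 1) * k) by ring]
      omega, Nat.even_mul, Nat.even_add_one]
    rcases Nat.even_or_odd k with ⟨j, hj⟩ | ⟨j, hj⟩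
    · exact iff_of_true (Or.inr ⟨j, hj⟩) fun h => by omega
    · have : ¬ Even k := Nat.not_even_iff_odd.2 ⟨j, hj⟩
      have : (2 * k + 1) % 4 = 3 := by omega
      tauto
  by_cases h : Even m ∧ p ^ f % 4 = 3
  · obtain ⟨e⟩ := hD h
    rw [if_neg (fun h' => hiff.1 h' h), Nat.card_congr e.toEquiv, Nat.card_prod, DihedralGroup.nat_card,
      Nat.card_congr Multiplicative.toAdd, Nat.card_zmod]
  · obtain ⟨e⟩ := hN h
    rw [if_pos (hiff.2 h), Nat.card_congr e.toEquiv, Nat.card_congr Multiplicative.toAdd, Nat.card_prod,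
      Nat.card_zmod, Nat.card_zmod]
    ring

theorem card_mulAut :
    Nat.card (MulAut (POmega F (quadFormMinus m F a b))) =
      (if p = 2 then 2 else (if Even ((m + 1) * (p ^ f - 1) / 2) then 4 else 8)) * f *
        Nat.card (POmega F (quadFormMinus m F a b)) := by
  rw [card_mulAut_eq (Classical.Orth.isNondegQF_quadFormMinus m a b hab) (by simp; omega), card_out hf hF hm hab]

end CfsgLib.AutOrthMinus
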