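import Cfsg.Agent.AutOrthMinus.Quot

/-! The groups `psoAut`, `inndiag` and `pgoAut` of `PΩ⁻` modulo inner automorphisms, odd characteristic. -/

set_option autoImplicit false
set_option linter.unusedSectionVars false

namespace CfsgLib.AutOrthMinus

open Cfsg Cfsg.Geo CfsgLib.OrthGeo CfsgLib.AutOrth Module
open CfsgLib.AutOrthField (Sim scalarSim)
open scoped Matrix MatrixGroups

universe u

variable {F : Type u} [Field F] {m : ℕ} {a b : F}

lemma two_ne_zero_of_odd [Fintype F] (hodd : Odd (Fintype.card F)) : (2 : F) ≠ 0 := by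
  intro h
  obtain ⟨k, hk⟩ := hodd
  have := FiniteField.cast_card_eq_zero F
  rw [hk, Nat.cast_add, Nat.cast_mul, Nat.cast_one, Nat.cast_ofNat, h, zero_mul, zero_add] at this
  exact one_ne_zero this

/-- From the shape of the image modulo inner similarities to a map on the image in `Aut`. -/
theorem exists_phi {D : Type*} [Group D] (H : Subgroup (Sim (quadFormMinus m F a b)))
    {P : Subgroup (MulAut (POmega F (quadFormMinus m F a b)))} (hP : P = H.map (conjS _))
    (he : Nonempty (H.map (prj m a b) ≃* D)) :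
    ∃ φ : P →* D, Function.Surjective φ ∧ φ.ker = (Inn (POmega F (quadFormMinus m F a b))).subgroupOf P := by
  obtain ⟨e⟩ := he
  refine exists_quotient_hom H hP (e.toMonoidHom.comp ((prj m a b).subgroupMap H))
    (e.surjective.comp ((prj m a b).subgroupMap_surjective H)) fun g => ?_
  rw [MonoidHom.comp_apply, MulEquiv.coe_toMonoidHom, map_eq_one_iff e e.injective, ← prj_eq_one_iff,
    Subtype.ext_iff]
  rfl

/-- The index of the inner automorphisms in an image. -/
theorem relIndex_eq_card (H : Subgroup (Sim (quadFormMinus m F a b)))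
    {P : Subgroup (MulAut (POmega F (quadFormMinus m F a b)))} (hP : P = H.map (conjS _)) :
    (Inn (POmega F (quadFormMinus m F a b))).relIndex P = Nat.card (H.map (prj m a b)) := by
  obtain ⟨φ, hφ, hker⟩ := exists_phi H hP ⟨MulEquiv.refl _⟩
  rw [Subgroup.relIndex, ← hker, Subgroup.index_ker, MonoidHom.range_eq_top.2 hφ, Subgroup.card_top]

variable (m a b) in
/-- Similarities that are isometries of determinant one. -/
noncomputable abbrev soS : Subgroup (Sim (quadFormMinus m F a b)) :=
  (specialIsometryGL F (quadFormMinus m F a b)).subgroupOf (quadSimilarityGroup (quadFormMinus m F a b))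

theorem psoAut_eq : psoAut F (quadFormMinus m F a b) = (soS m a b).map (conjS _) :=
  closure_eq_map _ _ fun β =>
    ⟨fun ⟨g, hg, h⟩ => ⟨⟨g, isometry_le_similarity _ hg.1⟩, hg, (induced_iff (isometry_le_similarity _ hg.1) β).1 h⟩,
      fun ⟨g, hg, h⟩ => ⟨g.1, hg, (induced_iff g.2 β).2 h⟩⟩

section main

variable [Fintype F] (h2 : (2 : F) ≠ 0) (hm : 2 ≤ m)
  (hab : ∀ x y : F, x ^ 2 + a * x * y + b * y ^ 2 = 0 → x = 0 ∧ y = 0)
include h2 hm hab

lemma hasPar_iff_unique {g : Sim (quadFormMinus m F a b)} {s t : Prop} (hs : HasPar a b (g : GL (Idx m) F) s)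
    (ht : HasPar a b (g : GL (Idx m) F) t) : s ↔ t :=
  (preservesMinus_of_parVal h2 hab _ fun K _ f θ hθ => hs K f θ hθ).symm.trans
    (preservesMinus_of_parVal h2 hab _ fun K _ f θ hθ => ht K f θ hθ)

/-- Similarities preserving both classes of maximal totally singular subspaces over a quadratic extension. -/
noncomputable def diagS : Subgroup (Sim (quadFormMinus m F a b)) where
  carrier := {g | HasPar a b (g : GL (Idx m) F) True}
  mul_mem' {g h} hg hh := by
    have := HasPar.mul (Classical.Orth.four_mul_sub_sq_ne_zero hab) hg hh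
    rwa [iff_true] at this
  one_mem' := fun K _ f θ hθ => parVal_one (Classical.Orth.four_mul_sub_sq_ne_zero hab) hθ
  inv_mem' {g} hg := by
    have e : g⁻¹ = g ^ (orderOf g - 1) := by
      rw [inv_eq_iff_mul_eq_one, ← pow_succ', Nat.sub_add_cancel (orderOf_pos g), pow_orderOf_eq_one]
    rw [e]
    show HasPar a b _ True
    generalize orderOf g - 1 = n
    induction n with
    | zero => exact fun K _ f θ hθ => parVal_one (Classical.Orth.four_mul_sub_sq_ne_zero hab) hθ
    | succ n ih =>
      rw [pow_succ, Subgroup.coe_mul]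
      have := HasPar.mul (Classical.Orth.four_mul_sub_sq_ne_zero hab) ih hg
      rwa [iff_true] at this

lemma mem_diagS_iff {g : Sim (quadFormMinus m F a b)} :
    g ∈ diagS hab ↔ HasPar a b (g : GL (Idx m) F) True := Iff.rfl

lemma hasPar_scalar_mul {u : Fˣ} {g : Sim (quadFormMinus m F a b)} {t : Prop} (hg : HasPar a b (g : GL (Idx m) F) t) :
    HasPar a b ((scalarSim (Classical.Orth.isNondegQF_quadFormMinus m a b hab) u * g : Sim _) : GL (Idx m) F) t := by
  have := HasPar.mul (Classical.Orth.four_mul_sub_sq_ne_zero hab) (hasPar_scalar h2 hm hab u) hg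
  rwa [true_iff] at this

theorem inndiag_eq : inndiagPOmegaMinus m F a b = (diagS hab).map (conjS _) := by
  obtain ⟨x, y, s, -, -, -, -, hs, -, hall⟩ := exists_gens h2 hm hab
  have key : ∀ g : Sim (quadFormMinus m F a b),
      PreservesSingularClassesMinus m a b ((g : GL (Idx m) F) : Matrix (Idx m) (Idx m) F) ↔ g ∈ diagS hab := by
    intro g
    obtain ⟨t, ht⟩ : ∃ t, HasPar a b (g : GL (Idx m) F) t := by
      obtain ⟨h, ⟨-, u, rfl⟩ | ⟨-, u, rfl⟩⟩ := hall g
      · exact ⟨_, hasPar_scalar_mul h2 hm hab (g := toS m a b h) (hasPar_isometry h2 hm hab h)⟩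
      · rw [mul_assoc]
        exact ⟨_, hasPar_scalar_mul h2 hm hab (g := toS m a b h * s)
          (HasPar.mul (Classical.Orth.four_mul_sub_sq_ne_zero hab) (hasPar_isometry h2 hm hab h) hs)⟩
    rw [preservesMinus_of_parVal h2 hab _ fun K _ f θ hθ => ht K f θ hθ, mem_diagS_iff h2 hm hab]
    constructor
    · intro hT; rwa [← eq_true hT]
    · intro hT; exact (hasPar_iff_unique h2 hm hab ht hT).2 trivial
  exact closure_eq_map _ _ fun β =>
    ⟨fun ⟨g, hg, hp, h⟩ => ⟨⟨g, hg⟩, (key ⟨g, hg⟩).1 hp, (induced_iff hg β).1 h⟩,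
      fun ⟨g, hg, h⟩ => ⟨g.1, g.2, (key g).2 hg, (induced_iff g.2 β).2 h⟩⟩

/-- The three images modulo inner automorphisms. -/
theorem quotient_shapes :
    ((Even m ∧ Fintype.card F % 4 = 3) →
      Nat.card ((soS m a b).map (prj m a b)) = 2 ∧
      Nonempty ((diagS (m := m) hab).map (prj m a b) ≃* Multiplicative (ZMod 4)) ∧
      Nonempty ((⊤ : Subgroup (Sim (quadFormMinus m F a b))).map (prj m a b) ≃* DihedralGroup 4)) ∧
    (¬ (Even m ∧ Fintype.card F % 4 = 3) →
      Nat.card ((soS m a b).map (prj m a b)) = 1 ∧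
      Nonempty ((diagS (m := m) hab).map (prj m a b) ≃* Multiplicative (ZMod 2)) ∧
      Nonempty ((⊤ : Subgroup (Sim (quadFormMinus m F a b))).map (prj m a b) ≃* Multiplicative (ZMod 2 × ZMod 2))) := by
  obtain ⟨x, y, s, hx, hy, hs2, hconj, hspar, hsout, hall⟩ := exists_gens h2 hm hab
  set π := prj m a b with hπ
  set c := cls h2 hm hab with hc
  set n := negI (m := m) hab
  set X := π (toS m a b x) with hX
  set Y := π (toS m a b y) with hY
  set S := π s with hS
  have hdec : ∀ z : Multiplicative (ZMod 2) × Multiplicative (ZMod 2), z = 1 ∨ z = c x ∨ z = c y ∨ z = c x * c y := by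
    rw [hc, hx, hy]; decide
  have hof : ∀ h, π (toS m a b h) = 1 ∧ c h = 1 ∨ π (toS m a b h) = X ∧ c h = c x ∨
      π (toS m a b h) = Y ∧ c h = c y ∨ π (toS m a b h) = X * Y ∧ c h = c x * c y := by
    intro h
    rcases hdec (c h) with e | e | e | e
    · refine Or.inl ⟨?_, e⟩
      rw [prj_toS_congr h2 hm hab (h := 1) (by rw [map_one]; exact e), map_one, map_one]
    · exact Or.inr (Or.inl ⟨prj_toS_congr h2 hm hab e, e⟩)
    · exact Or.inr (Or.inr (Or.inl ⟨prj_toS_congr h2 hm hab e, e⟩))
    · refine Or.inr (Or.inr (Or.inr ⟨?_, e⟩))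
      rw [prj_toS_congr h2 hm hab (h := x * y) (by rw [map_mul]; exact e), map_mul, map_mul]
  have hsq : ∀ h, π (toS m a b h) * π (toS m a b h) = 1 := fun h => by
    rw [← map_mul, ← map_mul, prj_toS_congr h2 hm hab (h := 1) (by
      rw [map_mul, map_one]
      exact (by decide : ∀ z : Multiplicative (ZMod 2) × Multiplicative (ZMod 2), z * z = 1) _), map_one, map_one]
  have hXX : X * X = 1 := hsq x
  have hYY : Y * Y = 1 := hsq y
  have hXY : Commute X Y := by
    show X * Y = Y * X
    rw [hX, hY, ← map_mul, ← map_mul, ← map_mul, ← map_mul]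
    exact prj_toS_congr h2 hm hab (by rw [map_mul, map_mul]; exact mul_comm _ _)
  have hX1 : X ≠ 1 := fun h => by
    have := cls_of_prj_eq_one h2 hm hab h
    rw [hx] at this
    rcases this with e | e
    · exact absurd (congrArg Prod.fst e) (by decide)
    · exact absurd ((congrArg Prod.fst e).trans (cls_negI_fst h2 hm hab)) (by
        show Multiplicative.ofAdd (1 : ZMod 2) ≠ 1
        decide)
  have hY1 : Y ≠ 1 := fun h => by
    have := cls_of_prj_eq_one h2 hm hab h
    rw [hy] at this
    rcases this with e | e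
    · exact absurd (congrArg Prod.fst e) (by decide)
    · exact absurd ((congrArg Prod.fst e).trans (cls_negI_fst h2 hm hab)) (by
        show Multiplicative.ofAdd (1 : ZMod 2) ≠ 1
        decide)
  have hnX : S ≠ 1 ∧ S ≠ X ∧ S ≠ Y ∧ S ≠ X * Y := by
    refine ⟨fun h => hsout 1 ?_, fun h => hsout x ?_, fun h => hsout y ?_, fun h => hsout (x * y) ?_⟩
    · rw [map_one, map_one, one_mul]; exact h
    · show X * S = 1; rw [h, hXX]
    · show Y * S = 1; rw [h, hYY]
    · rw [map_mul, map_mul]; show X * Y * S = 1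
      rw [h, mul_assoc, ← mul_assoc Y X Y, ← hXY.eq, mul_assoc X Y Y, hYY, mul_one, hXX]
  have htop : ∀ z ∈ (⊤ : Subgroup (Sim (quadFormMinus m F a b))).map π, (z = 1 ∨ z = X ∨ z = Y ∨ z = X * Y) ∨
      ∃ k, (k = 1 ∨ k = X ∨ k = Y ∨ k = X * Y) ∧ z = k * S := by
    rintro _ ⟨g, -, rfl⟩
    obtain ⟨h, ⟨e, -⟩ | ⟨e, -⟩⟩ := hall g
    · rw [e]
      exact Or.inl ((hof h).imp And.left (Or.imp And.left (Or.imp And.left And.left)))
    · exact Or.inr ⟨_, (hof h).imp And.left (Or.imp And.left (Or.imp And.left And.left)), e⟩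
  have hc1 : ∀ h, (c h).1 = 1 → π (toS m a b h) = 1 ∨ π (toS m a b h) = X * Y := by
    intro h e
    rcases hof h with ⟨e', -⟩ | ⟨-, e'⟩ | ⟨-, e'⟩ | ⟨e', -⟩
    · exact Or.inl e'
    · rw [e', hc, hx] at e; exact absurd e (show Multiplicative.ofAdd (1 : ZMod 2) ≠ 1 by decide)
    · rw [e', hc, hy] at e; exact absurd e (show Multiplicative.ofAdd (1 : ZMod 2) ≠ 1 by decide)
    · exact Or.inr e'
  have hc0 : ∀ h, (c h).1 ≠ 1 → π (toS m a b h) = X ∨ π (toS m a b h) = Y := by
    intro h e
    rcases hof h with ⟨-, e'⟩ | ⟨e', -⟩ | ⟨e', -⟩ | ⟨-, e'⟩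
    · rw [e'] at e; exact absurd rfl e
    · exact Or.inl e'
    · exact Or.inr e'
    · rw [e', hc, hx, hy] at e; exact absurd (by decide) e
  have hxy1 : (c (x * y)).1 = 1 := by rw [map_mul, hc, hx, hy]; decide
  -- the special orthogonal part
  have hso : ∀ z, z ∈ (soS m a b).map π → z = 1 ∨ z = X * Y := by
    rintro _ ⟨g, ⟨hg, hdet⟩, rfl⟩
    obtain ⟨h, rfl⟩ : ∃ h, g = toS m a b h := ⟨⟨g.1, hg⟩, rfl⟩
    refine hc1 h ?_
    rw [Classical.Orth.classHom_fst]
    by_contra he
    have e := Classical.Orth.det_eq_neg_one_pow (Classical.Orth.isNondegQF_quadFormMinus m a b hab) (hexc h2 hm hab) h.2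
    rw [(Nat.not_even_iff_odd.1 he).neg_one_pow] at e
    have e1 : ((h : GL (Idx m) F) : Matrix (Idx m) (Idx m) F).det = 1 := congrArg Units.val (MonoidHom.mem_ker.1 hdet)
    exact h2 (by linear_combination e1.symm.trans e)
  have hsoXY : X * Y ∈ (soS m a b).map π := by
    refine ⟨toS m a b (x * y), ⟨(x * y).2, MonoidHom.mem_ker.2 (Units.ext ?_)⟩, by rw [map_mul, map_mul]⟩
    show ((x * y : isometryGroup F (quadFormMinus m F a b)) : GL (Idx m) F).val.det = 1
    rw [Classical.Orth.det_eq_neg_one_pow (Classical.Orth.isNondegQF_quadFormMinus m a b hab) (hexc h2 hm hab)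
      (x * y).2, ((Classical.Orth.classHom_fst _ _ _).1 hxy1).neg_one_pow]
  -- the class-preserving part
  have hdiag : ∀ z, z ∈ (diagS hab).map π →
      (z = 1 ∨ z = X * Y) ∨ (Even (m + 1) ∧ (z = S ∨ z = X * Y * S)) ∨ (¬ Even (m + 1) ∧ (z = X * S ∨ z = Y * S)) := by
    rintro _ ⟨g, hg, rfl⟩
    obtain ⟨h, ⟨e, u, rfl⟩ | ⟨e, u, rfl⟩⟩ := hall g
    · rw [e]
      refine Or.inl (hc1 h ?_)
      exact (hasPar_iff_unique h2 hm hab (hasPar_scalar_mul h2 hm hab (g := toS m a b h) (hasPar_isometry h2 hm hab h)) hg).2 trivial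
    · rw [e]
      have h1 := hasPar_scalar_mul h2 hm hab (u := u) (g := toS m a b h * s)
        (HasPar.mul (Classical.Orth.four_mul_sub_sq_ne_zero hab) (hasPar_isometry h2 hm hab h) hspar)
      rw [← mul_assoc] at h1
      have h3 := (hasPar_iff_unique h2 hm hab h1 hg).2 trivial
      by_cases hev : Even (m + 1)
      · refine Or.inr (Or.inl ⟨hev, (hc1 h (h3.2 hev)).imp (fun e' => by rw [e', one_mul]) (fun e' => by rw [e'])⟩)
      · refine Or.inr (Or.inr ⟨hev, (hc0 h (fun e' => hev (h3.1 e'))).imp (fun e' => by rw [e']) (fun e' => by rw [e'])⟩)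
  have hpx : ∀ {g : Sim (quadFormMinus m F a b)}, HasPar a b (g : GL (Idx m) F) True → π g ∈ (diagS hab).map π :=
    fun hg => ⟨_, hg, rfl⟩
  constructor
  · intro hD
    have hn : c n = 1 := Prod.ext (cls_negI_fst h2 hm hab) ((cls_negI_snd h2 hm hab).2 hD)
    have hev : ¬ Even (m + 1) := fun h => Nat.even_add_one.1 h hD.1
    have hXY1 : X * Y ≠ 1 := fun h => by
      rw [hX, hY, ← map_mul, ← map_mul] at h
      have := (cls_of_prj_eq_one h2 hm hab h).elim id (fun e => e.trans hn)
      rw [map_mul, hx, hy] at this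
      exact absurd this (by decide)
    have hneXY : X ≠ Y := fun h => hXY1 (by rw [h, hYY])
    refine ⟨?_, ?_, ?_⟩
    · have : (soS m a b).map π = Subgroup.zpowers (X * Y) := by
        refine le_antisymm (fun z hz => ?_) (Subgroup.zpowers_le.2 hsoXY)
        rcases hso z hz with rfl | rfl
        exacts [one_mem _, Subgroup.mem_zpowers _]
      rw [this, Nat.card_zpowers]
      exact orderOf_eq_prime (by rw [sq, mul_assoc, ← mul_assoc Y X Y, ← hXY.eq, mul_assoc X Y Y, hYY, mul_one, hXX]) hXY1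
    · have hZ : X * S ∈ (diagS hab).map π := by
        rw [hX, hS, ← map_mul]
        refine hpx ?_
        have := HasPar.mul (Classical.Orth.four_mul_sub_sq_ne_zero hab) (hasPar_isometry h2 hm hab x) hspar
        rw [eq_false hev, iff_false, eq_true (show ¬ (c x).1 = 1 by rw [hc, hx]; decide)] at this
        exact this
      have hZ2 : X * S * (X * S) = X * Y := by
        rw [show X * S * (X * S) = X * (S * X * S) by group, hconj]
      refine equiv_zmod (g := ⟨X * S, hZ⟩) ?_ ?_
      · refine orderOf_eq_prime_pow (p := 2) (n := 1) (fun h => hXY1 ?_) ?_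
        · rw [pow_one, Subtype.ext_iff] at h
          rw [← hZ2]
          simpa [sq] using h
        · rw [Subtype.ext_iff, SubmonoidClass.coe_pow, OneMemClass.coe_one, show (2 : ℕ) ^ (1 + 1) = 2 + 2 from rfl, pow_add,
            sq, hZ2, ← mul_assoc, mul_assoc X Y X, ← hXY.eq, ← mul_assoc, hXX, one_mul, hYY]
      · rintro ⟨z, hz⟩
        rcases hdiag z hz with (rfl | rfl) | ⟨h, -⟩ | ⟨-, rfl | rfl⟩
        · exact one_mem _
        · rw [show (⟨X * Y, hz⟩ : ↥((diagS hab).map π)) = ⟨X * S, hZ⟩ ^ 2 from Subtype.ext (by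
            rw [SubmonoidClass.coe_pow, sq]; exact hZ2.symm)]
          exact pow_mem (Subgroup.mem_zpowers _) _
        · exact absurd h hev
        · exact Subgroup.mem_zpowers _
        · rw [show (⟨Y * S, hz⟩ : ↥((diagS hab).map π)) = ⟨X * S, hZ⟩ ^ 3 from Subtype.ext (by
            rw [SubmonoidClass.coe_pow, pow_succ, sq, hZ2, hXY.eq, mul_assoc, ← mul_assoc X X S, hXX, one_mul])]
          exact pow_mem (Subgroup.mem_zpowers _) _
    · have hTX : ∀ g, π g ∈ (⊤ : Subgroup (Sim (quadFormMinus m F a b))).map π := fun g => ⟨g, trivial, rfl⟩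
      refine equiv_dihedral (x := ⟨X, hTX _⟩) (y := ⟨Y, hTX _⟩) (s := ⟨S, hTX _⟩) (Subtype.ext hXX) (Subtype.ext hYY)
        (Subtype.ext hs2) (Subtype.ext hXY) (Subtype.ext hconj) (fun h => hX1 (congrArg Subtype.val h))
        (fun h => hY1 (congrArg Subtype.val h)) (fun h => hneXY (congrArg Subtype.val h)) ?_ ?_
      · exact ⟨fun h => hnX.1 (congrArg Subtype.val h), fun h => hnX.2.1 (congrArg Subtype.val h),
          fun h => hnX.2.2.1 (congrArg Subtype.val h), fun h => hnX.2.2.2 (congrArg Subtype.val h)⟩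
      · rintro ⟨z, hz⟩
        simp only [Subtype.ext_iff, Subtype.exists, Subgroup.coe_mul, OneMemClass.coe_one]
        rcases htop z hz with h | ⟨k, hk, rfl⟩
        · exact Or.inl h
        · refine Or.inr ⟨k, ?_, hk, rfl⟩
          rcases hk with rfl | rfl | rfl | rfl
          exacts [one_mem _, hTX _, hTX _, mul_mem (hTX _) (hTX _)]
  · intro hD
    have hn : c n = c (x * y) := by
      refine Prod.ext ((cls_negI_fst h2 hm hab).trans hxy1.symm) ?_
      have h1 : (c n).2 ≠ 1 := fun h => hD ((cls_negI_snd h2 hm hab).1 h)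
      rw [map_mul, hc, hx, hy]
      exact (by decide : ∀ z : Multiplicative (ZMod 2), z ≠ 1 → z = 1 * Multiplicative.ofAdd 1) _ h1
    have hXY1 : X * Y = 1 := by
      rw [hX, hY, ← map_mul, ← map_mul, ← prj_toS_congr h2 hm hab hn]
      exact (congrArg π (toS_negI h2 hm hab)).trans (prj_scalar h2 hm hab _)
    have hXeq : Y = X := mul_left_cancel (hXY1.trans hXX.symm)
    have hcomm : Commute X S := by
      show X * S = S * X
      have h := congrArg (· * S) hconj
      simp only [mul_assoc, hs2, mul_one] at h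
      rw [h, hXeq]
    refine ⟨?_, ?_, ?_⟩
    · have : (soS m a b).map π = ⊥ := (Subgroup.eq_bot_iff_forall _).2 fun z hz => (hso z hz).elim id (fun h => h.trans hXY1)
      rw [this, Subgroup.card_bot]
    · rcases Nat.even_or_odd (m + 1) with hev | hod
      · have hZ : S ∈ (diagS hab).map π := hpx (by rw [← eq_true hev]; exact hspar)
        refine equiv_zmod (g := ⟨S, hZ⟩) (orderOf_eq_prime (by rw [sq]; exact Subtype.ext hs2) (fun h => hnX.1 (congrArg Subtype.val h))) ?_
        rintro ⟨z, hz⟩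
        rcases hdiag z hz with (rfl | rfl) | ⟨-, rfl | rfl⟩ | ⟨h, -⟩
        · exact one_mem _
        · rw [show (⟨X * Y, hz⟩ : ↥((diagS hab).map π)) = 1 from Subtype.ext hXY1]; exact one_mem _
        · exact Subgroup.mem_zpowers _
        · rw [show (⟨X * Y * S, hz⟩ : ↥((diagS hab).map π)) = ⟨S, hZ⟩ from Subtype.ext ((congrArg (· * S) hXY1).trans (one_mul S))]
          exact Subgroup.mem_zpowers _
        · exact absurd hev h
      · have hev : ¬ Even (m + 1) := Nat.not_even_iff_odd.2 hod
        have hZ : X * S ∈ (diagS hab).map π := by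
          rw [hX, hS, ← map_mul]
          refine hpx ?_
          have := HasPar.mul (Classical.Orth.four_mul_sub_sq_ne_zero hab) (hasPar_isometry h2 hm hab x) hspar
          rw [eq_false hev, iff_false, eq_true (show ¬ (c x).1 = 1 by rw [hc, hx]; decide)] at this
          exact this
        refine equiv_zmod (g := ⟨X * S, hZ⟩) (orderOf_eq_prime (Subtype.ext ?_) (fun h => ?_)) ?_
        · rw [SubmonoidClass.coe_pow, OneMemClass.coe_one, sq, show X * S * (X * S) = X * (S * X * S) by group, hconj, hXY1]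
        · refine hnX.2.1 ?_
          have h' := congrArg (X * ·) (congrArg Subtype.val h)
          simp only [← mul_assoc, hXX, one_mul, OneMemClass.coe_one, mul_one] at h'
          exact h'
        · rintro ⟨z, hz⟩
          rcases hdiag z hz with (rfl | rfl) | ⟨h, -⟩ | ⟨-, rfl | rfl⟩
          · exact one_mem _
          · rw [show (⟨X * Y, hz⟩ : ↥((diagS hab).map π)) = 1 from Subtype.ext hXY1]; exact one_mem _
          · exact absurd h hev
          · exact Subgroup.mem_zpowers _
          · rw [show (⟨Y * S, hz⟩ : ↥((diagS hab).map π)) = ⟨X * S, hZ⟩ from Subtype.ext (congrArg (· * S) hXeq)]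
            exact Subgroup.mem_zpowers _
    · have hTX : ∀ g, π g ∈ (⊤ : Subgroup (Sim (quadFormMinus m F a b))).map π := fun g => ⟨g, trivial, rfl⟩
      refine equiv_klein (x := ⟨X, hTX _⟩) (s := ⟨S, hTX _⟩) (Subtype.ext hXX) (Subtype.ext hs2) (Subtype.ext hcomm)
        (fun h => hX1 (congrArg Subtype.val h)) (fun h => hnX.1 (congrArg Subtype.val h))
        (fun h => hnX.2.1 (congrArg Subtype.val h)) ?_
      rintro ⟨z, hz⟩
      simp only [Subtype.ext_iff, Subgroup.coe_mul, OneMemClass.coe_one]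
      have h1 := htop z hz
      rw [hXeq, hXX] at h1
      rcases h1 with (h | h | h | h) | ⟨k, rfl | rfl | rfl | rfl, rfl⟩
      · exact Or.inl h
      · exact Or.inr (Or.inl h)
      · exact Or.inr (Or.inl h)
      · exact Or.inl h
      · exact Or.inr (Or.inr (Or.inl (one_mul S)))
      · exact Or.inr (Or.inr (Or.inr rfl))
      · exact Or.inr (Or.inr (Or.inr rfl))
      · exact Or.inr (Or.inr (Or.inl (one_mul S)))

end main

end CfsgLib.AutOrthMinus
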