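import Cfsg.Agent.AutOrthMinus.Lifts
import Cfsg.Agent.AutOrthMinus.FieldPart

/-! The outer automorphism group of `PΩ⁻` as an extension of the similarities by the field automorphisms. -/

set_option autoImplicit false
set_option linter.unusedSectionVars false

namespace CfsgLib.AutOrthMinus

open Cfsg Cfsg.Geo CfsgLib.OrthGeo CfsgLib.AutOrth Module
open scoped Matrix MatrixGroups

universe u

variable {F : Type u} [Field F] [Fintype F] {m : ℕ} {a b : F}

/-- Similarities into the outer automorphism group. -/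
noncomputable def rho (m : ℕ) (a b : F) :
    quadSimilarityGroup (quadFormMinus m F a b) →* Out (POmega F (quadFormMinus m F a b)) :=
  (QuotientGroup.mk' _).comp (conjS _)

lemma rho_eq_one_iff (g : quadSimilarityGroup (quadFormMinus m F a b)) :
    rho m a b g = 1 ↔ conjS _ g ∈ Inn (POmega F (quadFormMinus m F a b)) :=
  QuotientGroup.eq_one_iff _

/-- A lift of the Frobenius to the outer automorphism group. -/
structure OutLift (m : ℕ) (a b : F) (τ : RingAut F) where
  /-- The field part. -/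
  ψ : Out (POmega F (quadFormMinus m F a b)) →* RingAut F
  ker_iff : ∀ z, ψ z = 1 ↔ ∃ s, z = rho m a b s
  x₁ : F
  y₁ : F
  hy : y₁ ≠ 0
  lift : SigLift a b τ x₁ y₁
  /-- The lift. -/
  E : Out (POmega F (quadFormMinus m F a b))
  E_eq : E = QuotientGroup.mk (twistP (sigLift_pair (m := m) hy lift))
  psi_E : ψ E = τ

/-- A lift exists as soon as all automorphisms are semisimilar. -/
theorem exists_outLift (hm : 3 ≤ m)
    (hab : ∀ x y : F, x ^ 2 + a * x * y + b * y ^ 2 = 0 → x = 0 ∧ y = 0)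
    (hall : ∀ β : MulAut (POmega F (quadFormMinus m F a b)), IsSemisim (quadFormMinus m F a b) β)
    {τ : RingAut F} {x y : F} (hy : y ≠ 0) (h : SigLift a b τ x y) :
    ∃ L : OutLift m a b τ, L.x₁ = x ∧ L.y₁ = y := by
  obtain ⟨ψ, h1, h2⟩ := exists_fieldHom (Classical.Orth.isNondegQF_quadFormMinus m a b hab)
    (by simp; omega) hall
  exact ⟨⟨ψ, h2, x, y, hy, h, _, rfl, h1 _ _ (sigLift_pair hy h)⟩, rfl, rfl⟩

variable {τ : RingAut F} (L : OutLift m a b τ)

lemma OutLift.psi_rho (s : quadSimilarityGroup (quadFormMinus m F a b)) : L.ψ (rho m a b s) = 1 :=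
  (L.ker_iff _).2 ⟨s, rfl⟩

/-- The lift carries a similarity to its twist. -/
lemma OutLift.E_conj {s s' : quadSimilarityGroup (quadFormMinus m F a b)}
    (e : twist (sigGL (m := m) L.x₁ L.y₁ L.hy) τ (s : GL (Idx m) F) = (s' : GL (Idx m) F)) :
    L.E * rho m a b s = rho m a b s' * L.E := by
  rw [L.E_eq]
  exact congrArg QuotientGroup.mk (twistP_mul_conjS (sigLift_pair L.hy L.lift) s s' e)

/-- The lift carries the reflection at `v` to the reflection at its image. -/
lemma OutLift.E_conj_reflection (hQ : IsNondegenerateQuadraticForm (quadFormMinus m F a b)) {v : Idx m → F}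
    (hv : quadFormMinus m F a b v ≠ 0) :
    ∃ (v' : Idx m → F) (hv' : quadFormMinus m F a b v' ≠ 0), quadFormMinus m F a b v' = τ (quadFormMinus m F a b v) ∧
      L.E * rho m a b ⟨OrthGeo.reflection hQ hv, isometry_le_similarity _ (OrthGeo.reflection_mem hQ hv)⟩ =
        rho m a b ⟨OrthGeo.reflection hQ hv', isometry_le_similarity _ (OrthGeo.reflection_mem hQ hv')⟩ * L.E := by
  have hg : ∀ w, quadFormMinus m F a b (semi (sigGL L.x₁ L.y₁ L.hy) τ w) = τ (quadFormMinus m F a b w) :=
    fun w => L.lift.quadForm w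
  have hv' : quadFormMinus m F a b (semi (sigGL L.x₁ L.y₁ L.hy) τ v) ≠ 0 := by
    rw [hg]; exact (map_ne_zero_iff _ τ.injective).2 hv
  exact ⟨_, hv', hg v, L.E_conj (twist_reflection hQ hg hv hv')⟩

/-- A power of the lift. -/
lemma OutLift.E_pow {g : GL (Idx m) F} (hg : g ∈ quadSimilarityGroup (quadFormMinus m F a b)) {k : ℕ} {x y : F} {hy : y ≠ 0}
    {h : SigLift a b (τ ^ k) x y} (hk : τ ^ k = 1) (hgx : g = sigGL x y hy)
    (e : twistP (sigLift_pair (m := m) L.hy L.lift) ^ k = twistP (sigLift_pair (m := m) hy h)) :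
    L.E ^ k = rho m a b ⟨g, hg⟩ := by
  rw [L.E_eq]
  exact congrArg QuotientGroup.mk (e.trans (twistP_congr _ (pair_of_mem_similarity hg) hgx.symm hk))

/-- Everything is a kernel element times a power of the lift. -/
lemma OutLift.exists_eq (hτ : ∀ σ : RingAut F, σ ∈ Subgroup.zpowers τ)
    (z : Out (POmega F (quadFormMinus m F a b))) : ∃ (s : quadSimilarityGroup (quadFormMinus m F a b)) (k : ℤ), z = rho m a b s * L.E ^ k := by
  obtain ⟨k, hk⟩ := Subgroup.mem_zpowers_iff.1 (hτ (L.ψ z))
  obtain ⟨s, hs⟩ := (L.ker_iff (z * (L.E ^ k)⁻¹)).1 (by rw [map_mul, map_inv, map_zpow, L.psi_E, hk, mul_inv_cancel])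
  exact ⟨s, k, by rw [← hs, inv_mul_cancel_right]⟩

end CfsgLib.AutOrthMinus
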