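import Cfsg.Agent.AutOrthMinus.OutLift
import Cfsg.Agent.AutOrthMinus.Images

/-! The outer automorphism group of `PΩ⁻` in odd characteristic, given that all automorphisms are semisimilar. -/

set_option autoImplicit false
set_option linter.unusedSectionVars false

namespace CfsgLib.AutOrthMinus

open Cfsg Cfsg.Geo CfsgLib.OrthGeo CfsgLib.AutOrth Module
open CfsgLib.AutOrthField (Sim scalarSim mult mult_eq mult_scalarSim)
open CfsgLib.Classical.Orth (refl classHom_fst classHom_refl_fst classHom_refl_snd exists_q_eq exists_not_isSquare)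
open scoped Matrix MatrixGroups

universe u

variable {F : Type u} [Field F] [Fintype F] {m : ℕ} {a b : F} {p f : ℕ}

/-- Similarities modulo inner ones, into `Out`. -/
noncomputable def rhoBar (m : ℕ) (a b : F) :
    Sim (quadFormMinus m F a b) ⧸ innS m a b →* Out (POmega F (quadFormMinus m F a b)) :=
  QuotientGroup.lift _ (rho m a b) fun g hg => MonoidHom.mem_ker.2 ((rho_eq_one_iff g).2 hg)

lemma rhoBar_prj (g : Sim (quadFormMinus m F a b)) : rhoBar m a b (prj m a b g) = rho m a b g := rfl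

lemma rhoBar_injective : Function.Injective (rhoBar (F := F) m a b) :=
  (injective_iff_map_eq_one _).2 fun q hq => by
    obtain ⟨g, rfl⟩ := QuotientGroup.mk_surjective q
    exact (prj_eq_one_iff g).2 ((rho_eq_one_iff g).1 hq)

lemma isSquare_map_iff (τ : RingAut F) (z : F) : IsSquare (τ z) ↔ IsSquare z :=
  ⟨fun h => by simpa using h.map τ.symm, fun h => h.map τ⟩

variable (h2 : (2 : F) ≠ 0) (hm : 3 ≤ m)
  (hab : ∀ x y : F, x ^ 2 + a * x * y + b * y ^ 2 = 0 → x = 0 ∧ y = 0)
include h2 hm hab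

/-- The lift commutes with the classes of reflections. -/
lemma commute_reflection {τ : RingAut F} (L : OutLift m a b τ) (h : isometryGroup F (quadFormMinus m F a b))
    (hh : (cls h2 (by omega : 2 ≤ m) hab h).1 ≠ 1) :
    Commute L.E (rhoBar m a b (prj m a b (toS m a b h))) := by
  set hQ := Classical.Orth.isNondegQF_quadFormMinus m a b hab
  set hx := hexc h2 (by omega : 2 ≤ m) hab
  have hne2 : ∀ z : Multiplicative (ZMod 2), z ≠ 1 → z = Multiplicative.ofAdd 1 := by decide
  have hcls : ∀ {v w : Idx m → F} (hv : quadFormMinus m F a b v ≠ 0) (hw : quadFormMinus m F a b w ≠ 0),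
      (IsSquare (quadFormMinus m F a b v) ↔ IsSquare (quadFormMinus m F a b w)) →
      cls h2 (by omega : 2 ≤ m) hab (refl hQ hv) = cls h2 (by omega : 2 ≤ m) hab (refl hQ hw) := by
    intro v w hv hw e
    refine Prod.ext ((classHom_refl_fst hQ hx hv).trans (classHom_refl_fst hQ hx hw).symm) ?_
    by_cases hs : IsSquare (quadFormMinus m F a b v)
    · exact ((classHom_refl_snd hQ hx hv).2 hs).trans ((classHom_refl_snd hQ hx hw).2 (e.1 hs)).symm
    · exact (hne2 _ fun h' => hs ((classHom_refl_snd hQ hx hv).1 h')).trans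
        (hne2 _ fun h' => hs (e.2 ((classHom_refl_snd hQ hx hw).1 h'))).symm
  obtain ⟨v, hv, hcv⟩ : ∃ (v : Idx m → F) (hv : quadFormMinus m F a b v ≠ 0),
      cls h2 (by omega : 2 ≤ m) hab h = cls h2 (by omega : 2 ≤ m) hab (refl hQ hv) := by
    obtain ⟨ε, hε⟩ := exists_not_isSquare (F := F) h2
    have hε0 : ε ≠ 0 := by rintro rfl; exact hε IsSquare.zero
    by_cases hs : (cls h2 (by omega : 2 ≤ m) hab h).2 = 1
    · obtain ⟨v, hv⟩ := exists_q_eq hQ (by simp) (one_ne_zero (α := F))
      refine ⟨v, by rw [hv]; exact one_ne_zero, Prod.ext ((hne2 _ hh).trans (classHom_refl_fst hQ hx _).symm) ?_⟩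
      exact hs.trans ((classHom_refl_snd hQ hx _).2 (by rw [hv]; exact IsSquare.one)).symm
    · obtain ⟨v, hv⟩ := exists_q_eq hQ (by simp) hε0
      refine ⟨v, by rw [hv]; exact hε0, Prod.ext ((hne2 _ hh).trans (classHom_refl_fst hQ hx _).symm) ?_⟩
      exact (hne2 _ hs).trans (hne2 _ fun h' => hε (by rw [← hv]; exact (classHom_refl_snd hQ hx _).1 h')).symm
  rw [prj_toS_congr h2 (by omega : 2 ≤ m) hab hcv, rhoBar_prj]
  obtain ⟨v', hv', e, he⟩ := L.E_conj_reflection hQ hv
  have hc : cls h2 (by omega : 2 ≤ m) hab (refl hQ hv) = cls h2 (by omega : 2 ≤ m) hab (refl hQ hv') :=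
    hcls hv hv' (by rw [e, isSquare_map_iff])
  have e2 := congrArg (rhoBar m a b) (prj_toS_congr h2 (by omega : 2 ≤ m) hab hc)
  rw [rhoBar_prj, rhoBar_prj] at e2
  show L.E * rho m a b (toS m a b (refl hQ hv)) = rho m a b (toS m a b (refl hQ hv)) * L.E
  refine he.trans (congrArg (· * L.E) ?_)
  exact e2.symm

variable [Fact p.Prime] [CharP F p] (hf : 1 ≤ f) (hF : Fintype.card F = p ^ f)
  (hall : ∀ β : MulAut (POmega F (quadFormMinus m F a b)), IsSemisim (quadFormMinus m F a b) β)
include hf hF hall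

/-- A lift of the Frobenius whose `f`-th power is a reflection class. -/
lemma exists_lift_odd :
    ∃ L : OutLift m a b (frobRA F p), ∃ h : isometryGroup F (quadFormMinus m F a b),
      (cls h2 (by omega : 2 ≤ m) hab h).1 ≠ 1 ∧ L.E ^ f = rhoBar m a b (prj m a b (toS m a b h)) := by
  set hQ := Classical.Orth.isNondegQF_quadFormMinus m a b hab
  set d := a ^ 2 - 4 * b with hd
  have hns : ¬ IsSquare d := not_isSquare_disc h2 hab
  have hd0 : d ≠ 0 := fun h => hns (by rw [h]; exact IsSquare.zero)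
  have hp2 : p % 2 = 1 := (Fact.out : p.Prime).eq_two_or_odd.resolve_left fun h => h2 (by
    subst h; exact_mod_cast CharP.cast_eq_zero F 2)
  set y₁ := d ^ ((p - 1) / 2) with hy1
  have hy₁ : y₁ ≠ 0 := pow_ne_zero _ hd0
  have hyy : y₁ ^ 2 * d = d ^ p := by
    rw [hy1, ← pow_mul, ← pow_succ]; congr 1; omega
  set x₁ := (a ^ p - a * y₁) / 2 with hx1
  have hlift : SigLift a b (frobRA F p) x₁ y₁ := by
    refine ⟨?_, ?_⟩
    · rw [hx1, frobRA_apply, mul_div_cancel₀ _ h2]; ring
    · have hb : d ^ p = (a ^ p) ^ 2 - 4 * b ^ p := by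
        rw [← frobRA_apply (p := p), hd, map_sub, map_pow, map_mul, map_ofNat, frobRA_apply, frobRA_apply]
      rw [hx1, frobRA_apply]
      field_simp
      rw [hd] at hyy hb
      linear_combination -hyy - hb
  obtain ⟨L, hLx, hLy⟩ := exists_outLift hm hab hall hy₁ hlift
  refine ⟨L, ?_⟩
  obtain ⟨x, y, hy, h, hP, e⟩ := lift_pow (m := m) (Classical.Orth.four_mul_sub_sq_ne_zero hab) L.hy L.lift
    (fun k _ y => y = y₁ ^ (∑ i ∈ Finset.range k, p ^ i)) (by simp) (fun k x y hy => by
      rw [hLy, frobRA_apply, hy, ← pow_mul, ← pow_succ', Finset.sum_range_succ', pow_zero, Finset.sum_mul]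
      simp only [pow_succ]) f
  have hτ : frobRA F p ^ f = 1 := by rw [← orderOf_frobRA hf hF]; exact pow_orderOf_eq_one _
  have hy' : y = -1 := by
    rw [hP, hy1, ← pow_mul]
    have hgeom : (p - 1) / 2 * ∑ i ∈ Finset.range f, p ^ i = Fintype.card F / 2 := by
      have hg := Nat.geomSum_eq (Fact.out : p.Prime).two_le f
      have hdiv : p - 1 ∣ p ^ f - 1 := by simpa using Nat.sub_dvd_pow_sub_pow p 1 f
      have h1 : (p - 1) * ∑ i ∈ Finset.range f, p ^ i = p ^ f - 1 := by
        rw [hg, Nat.mul_div_cancel' hdiv]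
      have h3 : p - 1 = 2 * ((p - 1) / 2) := by omega
      rw [h3, mul_assoc] at h1
      have h4 : p ^ f % 2 = 1 := by rw [Nat.pow_mod, hp2, one_pow, Nat.one_mod]
      rw [hF]; omega
    rw [hgeom]
    have hF2 : ringChar F ≠ 2 := fun h => h2 (by
      have := ringChar.Nat.cast_ringChar (R := F)
      rw [h] at this
      exact_mod_cast this)
    exact (FiniteField.pow_dichotomy hF2 hd0).resolve_left fun h1 => hns ((FiniteField.isSquare_iff hF2 hd0).2 h1)
  subst hy'
  have h' : SigLift a b (RingEquiv.refl F) x (-1) := by rw [show RingEquiv.refl F = frobRA F p ^ f from hτ.symm]; exact h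
  have hmem : (sigGL x (-1) hy : GL (Idx m) F) ∈ isometryGroup F (quadFormMinus m F a b) :=
    mem_isometryGroup.2 fun v => h'.quadForm v
  refine ⟨⟨_, hmem⟩, fun hc => ?_, ?_⟩
  · rw [classHom_fst] at hc
    have e1 := Classical.Orth.det_eq_neg_one_pow hQ (hexc h2 (by omega : 2 ≤ m) hab) hmem
    rw [hc.neg_one_pow, coe_sigGL, sigMat, Matrix.det_fromBlocks_zero₂₁, Matrix.det_one, one_mul,
      Matrix.det_fin_two] at e1
    simp at e1
    exact h2 (by linear_combination -e1)
  · rw [rhoBar_prj]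
    exact L.E_pow (g := sigGL x (-1) hy) (h := h) (isometry_le_similarity _ hmem) hτ rfl e

/-- The outer automorphism group in odd characteristic. -/
theorem out_odd :
    ((Even m ∧ Fintype.card F % 4 = 3) →
      Nonempty (Out (POmega F (quadFormMinus m F a b)) ≃* DihedralGroup 4 × Multiplicative (ZMod f))) ∧
    (¬ (Even m ∧ Fintype.card F % 4 = 3) →
      Nonempty (Out (POmega F (quadFormMinus m F a b)) ≃* Multiplicative (ZMod 2 × ZMod (2 * f)))) := by
  set hQ := Classical.Orth.isNondegQF_quadFormMinus m a b hab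
  have hm' : 2 ≤ m := by omega
  have hne : ∃ v, quadFormMinus m F a b v ≠ 0 := ⟨Pi.single (.inr 0) 1, by simp [quadFormMinus]⟩
  obtain ⟨L, hf0, hhf, hEf⟩ := exists_lift_odd h2 hm hab hf hF hall
  obtain ⟨x, y, s, hx, hy, hs2, hconj, hspar, hsout, hgens⟩ := exists_gens h2 hm' hab
  set π := prj m a b with hπ
  set ρ := rhoBar (F := F) m a b with hρ
  have hne2 : ∀ z : Multiplicative (ZMod 2), z ≠ 1 → z = Multiplicative.ofAdd 1 := by decide
  have hof1 : Multiplicative.ofAdd (1 : ZMod 2) ≠ 1 := by decide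
  have hCx : Commute L.E (ρ (π (toS m a b x))) := commute_reflection h2 hm hab L x (by rw [hx]; exact hof1)
  have hCy : Commute L.E (ρ (π (toS m a b y))) := commute_reflection h2 hm hab L y (by rw [hy]; exact hof1)
  have hfour : ∀ h, π (toS m a b h) = 1 ∨ π (toS m a b h) = π (toS m a b x) ∨ π (toS m a b h) = π (toS m a b y) ∨
      π (toS m a b h) = π (toS m a b x) * π (toS m a b y) := by
    intro h
    have hdec : ∀ z : Multiplicative (ZMod 2) × Multiplicative (ZMod 2),
        z = 1 ∨ z = cls h2 hm' hab x ∨ z = cls h2 hm' hab y ∨ z = cls h2 hm' hab x * cls h2 hm' hab y := by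
      rw [hx, hy]; decide
    rcases hdec (cls h2 hm' hab h) with e | e | e | e
    · left; rw [hπ, prj_toS_congr h2 hm' hab (h := 1) (by rw [map_one]; exact e), map_one, map_one]
    · exact Or.inr (Or.inl (prj_toS_congr h2 hm' hab e))
    · exact Or.inr (Or.inr (Or.inl (prj_toS_congr h2 hm' hab e)))
    · right; right; right
      rw [hπ, prj_toS_congr h2 hm' hab (h := x * y) (by rw [map_mul]; exact e), map_mul, map_mul]
  have hCh : ∀ h, Commute L.E (ρ (π (toS m a b h))) := by
    intro h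
    rcases hfour h with e | e | e | e <;> rw [e]
    · rw [map_one]; exact Commute.one_right _
    · exact hCx
    · exact hCy
    · rw [map_mul]; exact hCx.mul_right hCy
  -- explicit similarities with non-square multiplier differ from `s` by proper isometries
  have hsim : ∀ {α₁ α₂ c : F} (hc : c ≠ 0) (hα : α₁ ^ 2 + a * α₁ * α₂ + b * α₂ ^ 2 = c), ¬ IsSquare c →
      ∃ h, (cls h2 hm' hab h).1 = 1 ∧
        π ⟨simGL α₁ α₂ c hc hα, ⟨Units.mk0 c hc, simGL_similarity α₁ α₂ c hc hα⟩⟩ = π (toS m a b h) * π s := by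
    intro α₁ α₂ c hc hα hns
    set g : Sim (quadFormMinus m F a b) := ⟨simGL α₁ α₂ c hc hα, ⟨Units.mk0 c hc, simGL_similarity α₁ α₂ c hc hα⟩⟩
    obtain ⟨h, ⟨-, u, e⟩ | ⟨e', u, e⟩⟩ := hgens g
    · exfalso
      have h1 : (mult hne g : F) = c := mult_eq hne _ _ (simGL_similarity α₁ α₂ c hc hα)
      have hh : mult hne (toS m a b h) = 1 := Units.ext (mult_eq hne _ _ fun v => by
        rw [Units.val_one, one_mul]; exact mem_isometryGroup.1 h.2 v)
      rw [e, map_mul, mult_scalarSim, hh, mul_one, Units.val_pow_eq_pow_val] at h1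
      exact hns ⟨u, by rw [← h1, sq]⟩
    · refine ⟨h, ?_, e'⟩
      have hp1 : HasPar a b (g : GL (Idx m) F) (Even (m + 1)) := fun K _ fK θ hθ =>
        parVal_sim (Classical.Orth.four_mul_sub_sq_ne_zero hab) hθ hab α₁ α₂ c hc hα
      have hp2 := hasPar_scalar_mul h2 hm' hab (u := u) (g := toS m a b h * s)
        (HasPar.mul (Classical.Orth.four_mul_sub_sq_ne_zero hab) (hasPar_isometry h2 hm' hab h) hspar)
      rw [← mul_assoc, ← e] at hp2
      exact (hasPar_iff_unique h2 hm' hab hp1 hp2).elim fun hl hr => by tauto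
  obtain ⟨ε, hε⟩ := exists_not_isSquare (F := F) h2
  have hε0 : ε ≠ 0 := by rintro rfl; exact hε IsSquare.zero
  obtain ⟨α, hα⟩ := exists_q_eq (Classical.Orth.isNondegQF_quadFormMinus 0 a b hab) (by simp) hε0
  have hα' : α (.inr 0) ^ 2 + a * α (.inr 0) * α (.inr 1) + b * α (.inr 1) ^ 2 = ε := by
    simpa [quadFormMinus] using hα
  obtain ⟨hε', hα'', hst⟩ := twist_simGL (m := m) L.hy L.lift hε0 hα'
  obtain ⟨h₀, hh₀, e₀⟩ := hsim hε0 hα' hε
  obtain ⟨h₁, hh₁, e₁⟩ := hsim hε' hα'' (fun h => hε ((isSquare_map_iff _ _).1 h))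
  have hES0 : L.E * ρ (π (toS m a b h₀) * π s) = ρ (π (toS m a b h₁) * π s) * L.E := by
    rw [← e₀, ← e₁, hρ, hπ, rhoBar_prj, rhoBar_prj]
    exact L.E_conj hst
  have hES : ∃ k, (cls h2 hm' hab k).1 = 1 ∧ L.E * ρ (π s) = ρ (π (toS m a b k)) * ρ (π s) * L.E := by
    refine ⟨h₀⁻¹ * h₁, by rw [map_mul, map_inv, Prod.fst_mul, Prod.fst_inv, hh₀, hh₁, inv_one, one_mul], ?_⟩
    rw [map_mul ρ, map_mul ρ, ← mul_assoc, (hCh h₀).eq, mul_assoc] at hES0
    rw [map_mul, map_mul, map_inv, map_inv, map_mul, map_inv, mul_assoc, mul_assoc, eq_inv_mul_iff_mul_eq, hES0,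
      mul_assoc]
  have hlist : ∀ g, ∃ h, π g = π (toS m a b h) ∨ π g = π (toS m a b h) * π s := by
    intro g
    obtain ⟨h, ⟨e, -⟩ | ⟨e, -⟩⟩ := hgens g
    exacts [⟨h, Or.inl e⟩, ⟨h, Or.inr e⟩]
  have hτ := mem_zpowers_frobRA (F := F) (p := p) hf hF
  have hord := orderOf_frobRA (F := F) (p := p) hf hF
  have hsq1 : ∀ h, π (toS m a b h) * π (toS m a b h) = 1 := fun h => by
    rw [hπ, ← map_mul, ← map_mul, prj_toS_congr h2 hm' hab (h := 1) (by
      rw [map_mul, map_one]
      exact (by decide : ∀ z : Multiplicative (ZMod 2) × Multiplicative (ZMod 2), z * z = 1) _), map_one, map_one]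
  obtain ⟨hD8, hV4⟩ := quotient_shapes h2 hm' hab
  constructor
  · intro hD
    obtain ⟨-, -, ⟨eD⟩⟩ := hD8 hD
    have hfodd : Odd f := by
      rcases Nat.even_or_odd f with ⟨k, hk⟩ | h
      · exfalso
        have hsq : p ^ f = (p ^ k) * (p ^ k) := by rw [hk, pow_add]
        have := hD.2
        rw [hF, hsq, Nat.mul_mod] at this
        have : p ^ k % 4 < 4 := Nat.mod_lt _ (by norm_num)
        interval_cases hr : p ^ k % 4 <;> omega
      · exact h
    let ι : DihedralGroup 4 →* Out (POmega F (quadFormMinus m F a b)) :=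
      ρ.comp ((Subgroup.subtype _).comp eD.symm.toMonoidHom)
    have hι : ∀ g, ∃ d, ι d = ρ (π g) := fun g => ⟨eD ⟨π g, g, trivial, rfl⟩, by simp [ι]⟩
    -- an even power of the lift commutes with the kernel
    have hE2 : ∀ g, Commute (L.E ^ 2) (ρ (π g)) := by
      obtain ⟨k, hk, hks⟩ := hES
      have hS : Commute (L.E ^ 2) (ρ (π s)) := by
        show L.E ^ 2 * ρ (π s) = ρ (π s) * L.E ^ 2
        rw [sq, mul_assoc, hks, ← mul_assoc, ← mul_assoc, (hCh k).eq, mul_assoc _ L.E, hks, ← mul_assoc,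
          ← mul_assoc, ← map_mul ρ, hsq1 k, map_one, one_mul, mul_assoc]
      intro g
      obtain ⟨h, e | e⟩ := hlist g <;> rw [e]
      · exact (hCh h).pow_left 2
      · rw [map_mul]; exact ((hCh h).pow_left 2).mul_right hS
    obtain ⟨j, hj⟩ : Even (f + 1) := hfodd.add_one
    set E' := L.E ^ (f + 1) with hE'
    have hE'f : E' ^ f = 1 := by
      rw [hE', ← pow_mul, mul_comm, pow_mul, hEf, hj, ← two_mul, pow_mul, sq, ← map_mul ρ, hsq1, map_one, one_pow]
    have hψE' : L.ψ E' = frobRA F p := by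
      rw [hE', map_pow, L.psi_E, pow_succ, ← hord, pow_orderOf_eq_one, one_mul]
    have hcE : ∀ d, Commute E' (ι d) := fun d => by
      obtain ⟨g, -, hg⟩ := (eD.symm d).2
      show Commute E' (ρ (eD.symm d : _))
      rw [← hg, hE', hj, ← two_mul, pow_mul]
      exact (hE2 g).pow_left j
    have : NeZero f := ⟨by omega⟩
    let cyc : Multiplicative (ZMod f) →* Out (POmega F (quadFormMinus m F a b)) :=
      { toFun := fun i => E' ^ (Multiplicative.toAdd i).val
        map_one' := by simp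
        map_mul' := fun i j => by rw [toAdd_mul, pow_val_add hE'f] }
    let φ := ι.noncommCoprod cyc fun d i => ((hcE d).pow_left (Multiplicative.toAdd i).val).symm
    refine ⟨(MulEquiv.ofBijective φ ⟨(injective_iff_map_eq_one φ).2 ?_, ?_⟩).symm⟩
    · rintro ⟨d, i⟩ h
      change ι d * cyc i = 1 at h
      obtain ⟨g, -, hg⟩ := (eD.symm d).2
      have h1 := congrArg L.ψ h
      have hψd : L.ψ (ι d) = 1 := by
        show L.ψ (ρ (eD.symm d : _)) = 1
        rw [← hg]; exact L.psi_rho g
      rw [map_mul, map_one, hψd, one_mul] at h1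
      change L.ψ (E' ^ (Multiplicative.toAdd i).val) = 1 at h1
      rw [map_pow, hψE', ← orderOf_dvd_iff_pow_eq_one, hord] at h1
      have hi : i = 1 := Multiplicative.toAdd.injective ((ZMod.val_eq_zero _).1
        (Nat.eq_zero_of_dvd_of_lt h1 (ZMod.val_lt _)))
      rw [hi, map_one, mul_one] at h
      have : (eD.symm d : Sim (quadFormMinus m F a b) ⧸ innS m a b) = 1 := rhoBar_injective (h.trans (map_one _).symm)
      rw [hi, show d = 1 from eD.symm.injective ((Subtype.ext this).trans (map_one _).symm)]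
      rfl
    · intro z
      obtain ⟨k, hk⟩ := Subgroup.mem_zpowers_iff.1 (hτ (L.ψ z))
      obtain ⟨g, hg⟩ := (L.ker_iff (z * (E' ^ k)⁻¹)).1 (by rw [map_mul, map_inv, map_zpow, hψE', hk, mul_inv_cancel])
      obtain ⟨d, hd⟩ := hι g
      obtain ⟨n, hn⟩ : ∃ n : ℕ, E' ^ k = E' ^ n := ⟨(k % f).toNat, by
        rw [← zpow_natCast, Int.toNat_of_nonneg (Int.emod_nonneg _ (by omega))]
        conv_lhs => rw [← Int.emod_add_mul_ediv k f, _root_.zpow_add, zpow_mul, zpow_natCast, hE'f, one_zpow, mul_one]⟩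
      refine ⟨(d, Multiplicative.ofAdd (n : ZMod f)), ?_⟩
      show ι d * E' ^ (n : ZMod f).val = z
      rw [ZMod.val_natCast, ← pow_eq_pow_mod n hE'f, hd, hπ, hρ, rhoBar_prj, ← hg, ← hn, inv_mul_cancel_right]
  · intro hD
    have hXY : π (toS m a b x) * π (toS m a b y) = 1 := by
      have hn : cls h2 hm' hab (negI (m := m) hab) = cls h2 hm' hab (x * y) := by
        refine Prod.ext ?_ ?_
        · rw [cls_negI_fst, map_mul, hx, hy]; decide
        · rw [hne2 _ fun h => hD ((cls_negI_snd h2 hm' hab).1 h), map_mul, hx, hy]; decide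
      rw [hπ, ← map_mul, ← map_mul, ← prj_toS_congr h2 hm' hab hn]
      exact (congrArg π (toS_negI h2 hm' hab)).trans (prj_scalar h2 hm' hab _)
    have hyx : π (toS m a b y) = π (toS m a b x) := mul_left_cancel (hXY.trans (hsq1 x).symm)
    have hk1 : ∀ k, (cls h2 hm' hab k).1 = 1 → π (toS m a b k) = 1 := by
      intro k hk
      have hdec : ∀ z : Multiplicative (ZMod 2) × Multiplicative (ZMod 2), z.1 = 1 →
          z = 1 ∨ z = cls h2 hm' hab x * cls h2 hm' hab y := by rw [hx, hy]; decide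
      rcases hdec _ hk with e | e
      · rw [hπ, prj_toS_congr h2 hm' hab (h := 1) (by rw [map_one]; exact e), map_one, map_one]
      · rw [hπ, prj_toS_congr h2 hm' hab (h := x * y) (by rw [map_mul]; exact e), map_mul, map_mul]; exact hXY
    have hX1 : π (toS m a b x) ≠ 1 := fun h => by
      rcases cls_of_prj_eq_one h2 hm' hab h with e | e <;> rw [hx] at e <;> have := congrArg Prod.fst e
      · exact hof1 this
      · exact hof1 (this.trans (cls_negI_fst h2 hm' hab))
    obtain ⟨k, hk, hks⟩ := hES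
    have hcS : Commute (ρ (π s)) L.E := by
      show ρ (π s) * L.E = L.E * ρ (π s)
      rw [hks, hk1 k hk, map_one, one_mul]
    have hEfX : L.E ^ f = ρ (π (toS m a b x)) := by
      rw [hEf]
      congr 1
      rcases hfour hf0 with e | e | e | e
      · exfalso
        rcases cls_of_prj_eq_one h2 hm' hab e with h | h
        · exact hhf (by rw [h]; rfl)
        · exact hhf (by rw [h]; exact cls_negI_fst h2 hm' hab)
      · exact e
      · exact e.trans hyx
      · exfalso
        rcases cls_of_prj_eq_one h2 hm' hab (e.trans hXY) with h | h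
        · exact hhf (by rw [h]; rfl)
        · exact hhf (by rw [h]; exact cls_negI_fst h2 hm' hab)
    have hE2f : L.E ^ (2 * f) = 1 := by rw [mul_comm, pow_mul, hEfX, sq, ← map_mul ρ, hsq1, map_one]
    have hS2 : ρ (π s) ^ 2 = 1 := by rw [sq, ← map_mul ρ, hs2, map_one]
    have : NeZero (2 * f) := ⟨by omega⟩
    let φ := homProd (k := 2) (n := 2 * f) (ρ (π s)) L.E hS2 hE2f hcS
    refine ⟨(MulEquiv.ofBijective φ ⟨(injective_iff_map_eq_one φ).2 ?_, ?_⟩).symm⟩
    · intro w h
      obtain ⟨⟨i, j⟩, rfl⟩ := Multiplicative.ofAdd.surjective w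
      change ρ (π s) ^ i.val * L.E ^ j.val = 1 at h
      have h1 := congrArg L.ψ h
      rw [map_mul, map_pow, map_pow, L.psi_E, map_one, show L.ψ (ρ (π s)) = 1 from L.psi_rho s, one_pow, one_mul,
        ← orderOf_dvd_iff_pow_eq_one, hord] at h1
      obtain ⟨t, ht⟩ := h1
      rw [ht, pow_mul, hEfX] at h
      have ht2 : t < 2 := by
        by_contra hc
        have := ZMod.val_lt j
        nlinarith
      have hi2 : i.val < 2 := ZMod.val_lt i
      have hcases : (i.val = 0 ∨ i.val = 1) ∧ (t = 0 ∨ t = 1) := ⟨by omega, by omega⟩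
      rcases hcases with ⟨hi | hi, ht' | ht'⟩ <;> rw [hi, ht'] at h
      · have hj : j = 0 := (ZMod.val_eq_zero j).1 (by rw [ht, ht', mul_zero])
        rw [(ZMod.val_eq_zero i).1 hi, hj]; rfl
      · rw [pow_zero, one_mul, pow_one] at h
        exact absurd (rhoBar_injective (h.trans (map_one _).symm)) hX1
      · rw [pow_zero, mul_one, pow_one] at h
        have h' : π s = 1 := rhoBar_injective (h.trans (map_one _).symm)
        exact absurd (show π (toS m a b 1) * π s = 1 by rw [map_one, map_one, one_mul, h']) (hsout 1)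
      · rw [pow_one, pow_one, ← map_mul ρ] at h
        have h' : π s * π (toS m a b x) = 1 := rhoBar_injective (h.trans (map_one _).symm)
        exact absurd (mul_eq_one_iff_eq_inv.2 (inv_eq_of_mul_eq_one_right h').symm) (hsout x)
    · have mS : ρ (π s) ∈ φ.range := ⟨Multiplicative.ofAdd (1, 0), by
        show ρ (π s) ^ (1 : ZMod 2).val * L.E ^ (0 : ZMod (2 * f)).val = _
        rw [show (1 : ZMod 2).val = 1 from rfl, ZMod.val_zero, pow_one, pow_zero, mul_one]⟩
      have mE : L.E ∈ φ.range := ⟨Multiplicative.ofAdd (0, 1), by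
        show ρ (π s) ^ (0 : ZMod 2).val * L.E ^ (1 : ZMod (2 * f)).val = _
        have : Fact (1 < 2 * f) := ⟨by omega⟩
        rw [ZMod.val_one, ZMod.val_zero, pow_zero, pow_one, one_mul]⟩
      have mX : ρ (π (toS m a b x)) ∈ φ.range := hEfX ▸ pow_mem mE f
      have mh : ∀ h, ρ (π (toS m a b h)) ∈ φ.range := fun h => by
        rcases hfour h with e | e | e | e <;> rw [e]
        · rw [map_one]; exact one_mem _
        · exact mX
        · rw [hyx]; exact mX
        · rw [hXY, map_one]; exact one_mem _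
      intro z
      obtain ⟨g, n, rfl⟩ := L.exists_eq hτ z
      refine mul_mem (?_ : rho m a b g ∈ φ.range) (zpow_mem mE n)
      obtain ⟨h, e | e⟩ := hlist g
      · rw [← rhoBar_prj, ← hπ, ← hρ, e]; exact mh h
      · rw [← rhoBar_prj, ← hπ, ← hρ, e, map_mul]; exact mul_mem (mh h) mS

end CfsgLib.AutOrthMinus
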